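import Cfsg.Agent.Sing.KDef

/-!
# Refined output of the character theory
-/

set_option autoImplicit false

namespace Cfsg.Agent.Sing.E7

open MulAction Pointwise Cfsg.Agent.Proj.CK

variable {G : Type*} [Group G] {α : Type*} [MulAction G α]

/-- the subdegree -/
noncomputable abbrev sd (G : Type*) [Group G] [MulAction G α] (y z : α) : ℕ :=
  (orb (stabilizer G y) z).ncard

/-- `∑ (Nn - κ)² / κ ≤ B |Ω| |P| / (h - n)²`, the sum over one or two orbitals starting at `y` -/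
structure CJ (Z S : Subgroup G) (P : Set α) (n h B : ℕ) : Prop where
  ci : CI Z S P n
  one : ∀ s ∈ S, s ∉ Z → ∀ y ∈ P, ∀ z ∈ orb (⊤ : Subgroup G) y,
    ((Nn s y z : ℤ) - sd G y z) ^ 2 * ((h : ℤ) - n) ^ 2 ≤
      B * (orb (⊤ : Subgroup G) y).ncard * P.ncard * sd G y z
  two : ∀ s ∈ S, s ∉ Z → ∀ y ∈ P, ∀ z ∈ orb (⊤ : Subgroup G) y, ∀ w ∈ orb (⊤ : Subgroup G) y,
    w ∉ orb (stabilizer G y) z →
    (((Nn s y z : ℤ) - sd G y z) ^ 2 * sd G y w + ((Nn s y w : ℤ) - sd G y w) ^ 2 * sd G y z) *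
      ((h : ℤ) - n) ^ 2 ≤ B * (orb (⊤ : Subgroup G) y).ncard * P.ncard * (sd G y z * sd G y w)

end Cfsg.Agent.Sing.E7
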