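import Cfsg.Agent.Sg7.CDef
import Cfsg.Agent.Sing.ChZ

/-!
# The refined orbital inequalities
-/

set_option autoImplicit false
set_option linter.unusedSectionVars false
set_option linter.style.haveILetI false

namespace Cfsg.Agent.Sing.E7

open MulAction Pointwise Cfsg.Agent.Proj.CK
open Cfsg.Agent.Char

section Aux

variable {H : Type*} [Group H] [Fintype H] {P : Type*} [MulAction H P] [DecidableEq P]
  [DecidableEq H] [Fintype P]

open Classical in
/-- the orbital of `p` -/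
noncomputable def orbF (H : Type*) [Group H] [MulAction H P] (p : P × P) : Finset (P × P) :=
  Finset.univ.filter fun w => ∃ k : H, k • p = w

theorem mem_orbF {p w : P × P} : w ∈ orbF H p ↔ ∃ k : H, k • p = w := by
  simp [orbF]

theorem orbF_sum {f : H → ℂ} (hf : IsClassFunction H f) (p : P × P) :
    Nat.card (stabilizer H p) * ∑ w ∈ orbF H p, ‖Mw f w‖ ^ 2 = Nat.card H * ‖Mw f p‖ ^ 2 := by
  have h1 : (Nat.card H : ℝ) * ‖Mw f p‖ ^ 2 = ∑ k : H, ‖Mw f (k • p)‖ ^ 2 := by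
    simp [Mw_smul hf]
  rw [h1, ← Finset.sum_fiberwise_of_maps_to (s := Finset.univ) (t := orbF H p)
    (g := fun k : H => k • p) fun k _ => mem_orbF.2 ⟨k, rfl⟩, Finset.mul_sum]
  refine Finset.sum_congr rfl fun w hw => ?_
  obtain ⟨k, rfl⟩ := mem_orbF.1 hw
  rw [Finset.sum_congr rfl (g := fun _ => ‖Mw f (k • p)‖ ^ 2) fun k hk => by
    rw [(Finset.mem_filter.1 hk).2], Finset.sum_const, nsmul_eq_mul, card_fib]

theorem orbF_val (s : H) (y : P) (k : H) :
    (∑ w ∈ orbF H (y, k • y), ‖Mw (Fs s - fun _ => 1) w‖ ^ 2) *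
      ((orb (⊤ : Subgroup H) y).ncard * sd H y (k • y)) =
      (Nat.card H : ℝ) ^ 2 * ((Nn s y (k • y) : ℝ) - sd H y (k • y)) ^ 2 := by
  have hf := (Fs_class s).sub (isClassFunction_const (G := H) 1)
  have h2 := orbF_sum hf (y, k • y)
  rw [Mw_sub, Mw_Fs, Mw_one, ← sub_mul, norm_mul, mul_pow, Complex.norm_natCast] at h2
  have h3 : ‖(Nn s y (k • y) : ℂ) - (orb (stabilizer H y) (k • y)).ncard‖ ^ 2 =
      ((Nn s y (k • y) : ℝ) - (orb (stabilizer H y) (k • y)).ncard) ^ 2 := by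
    rw [← sq_abs (_ - _), ← Real.norm_eq_abs, ← Complex.norm_real]; simp
  rw [h3] at h2
  have h4 := ncard_orb_mul (⊤ : Subgroup H) y
  have h5 := ncard_orb_mul (stabilizer H y) (k • y)
  have h6 : stabilizer H (y, k • y) = stabilizer H y ⊓ stabilizer H (k • y) := by
    ext g; simp [Prod.ext_iff]
  rw [top_inf_eq, Subgroup.card_top, ← h5, ← h6] at h4
  have e0 : (0 : ℝ) < Nat.card (stabilizer H (y, k • y)) := by exact_mod_cast Nat.card_pos
  have h7 := congrArg (Nat.cast : ℕ → ℝ) h4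
  push_cast at h7
  unfold sd
  apply mul_left_cancel₀ e0.ne'
  rw [← mul_assoc, h2, ← h7]
  ring

end Aux

/-- Copy the second half of `Sing.TId.ci` (file `Sing/ChB`): with `f = Fs s - 1`,
`∑_p ‖Mw f p‖² ≤ |H|² B |P| / (h - n)²` (same proof as `h1` there, `b² ≤ n` gives `b² ≤ B`).
`Mw f` is constant (`Mw_smul`) on the orbital `O` of `(y, z)`, with value `(Nn - κ) e`
(`Mw_Fs`, `Mw_one`), `e = |H_{(y,z)}|`, `|O| e = |H| = |Ω| κ e`.  So `O` contributes
`|H|² (Nn - κ)² / (|Ω| κ)` to the sum.  For `w ∉ H_y z` the orbitals of `(y, z)` and `(y, w)` are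
disjoint, so both contributions together are at most the sum (variant of `card_mul_Mw_le`: sum over
the union of the two orbits as finsets, `Finset.sum_le_sum_of_subset_of_nonneg`). -/
theorem TId.cj {H : Type*} [Group H] [Finite H] {S N : Subgroup H} {σ : H} {n h B : ℕ}
    {P : Type*} [MulAction H P] [Finite P] (D : TId S N σ n h)
    (hS : Subgroup.normalClosure (S : Set H) = ⊤) (hP : Nat.card P ≤ n * h)
    (hsr : ∀ s ∈ S, ∀ p : P, s • p = p → s = 1) (hB : ∀ b : ℤ, b ^ 2 ≤ n → b ^ 2 ≤ B) :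
    CJ (⊥ : Subgroup H) S (Set.univ : Set P) n h B := by
  classical
  haveI := Fintype.ofFinite H
  haveI := Fintype.ofFinite P
  have hπ := isCharacter_fixedBy (G := H) P
  obtain ⟨c, hc1, hc⟩ := hπ.exists_coeff
  have π1 : (Nat.card (fixedBy P (1 : H)) : ℂ) = Nat.card P := by simp
  have hn : 1 ≤ n := D.prime.one_le
  have hbig := D.big
  have key : ∀ χ : IrrCharacter H, χ.1 ≠ (fun _ => 1) → c χ ≠ 0 →
      (h : ℝ) - n ≤ (χ.1 1).re ∧ ∃ b : ℤ, b ^ 2 ≤ n ∧ ∀ s ∈ S, s ≠ 1 → χ.1 s = b := by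
    intro χ h1 h2
    refine D.const hS hπ ?_ (fun s hs s1 => ?_) χ.2 h1 (by rw [hc1]; exact_mod_cast h2)
    · rw [π1]; exact_mod_cast hP
    · have : IsEmpty (fixedBy P s) := ⟨fun p => s1 (hsr s hs p.1 p.2)⟩
      simp
  have hn' : (1 : ℝ) ≤ n := by exact_mod_cast hn
  have hh : (16 : ℝ) * n ^ 2 < h := by exact_mod_cast hbig
  have hhn : (0 : ℝ) < h - n := by nlinarith
  have H1 : (0 : ℝ) < Nat.card H := by exact_mod_cast Nat.card_pos
  have tot : ∀ s ∈ S, s ≠ 1 → (∑ p : P × P, ‖Mw (Fs s - fun _ => 1) p‖ ^ 2) * (h - n) ^ 2 ≤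
      (Nat.card H : ℝ) ^ 2 * B * Nat.card P := by
    intro s hs s1
    have hf := (Fs_class s).sub (isClassFunction_const (G := H) 1)
    rw [← le_div_iff₀ (by positivity), ← div_mul_eq_mul_div]
    have e1 : (Nat.card P : ℝ) = ∑ χ : IrrCharacter H, c χ * (χ.1 1).re := by
      have := congrArg Complex.re (congrFun hc 1)
      simp only [π1] at this
      simpa using this
    rw [sum_Mw_sq hf c hc, e1, Finset.mul_sum]
    refine Finset.sum_le_sum fun χ _ => ?_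
    have d0 : 0 ≤ (χ.1 1).re := χ.2.isCharacter.one_re_nonneg
    by_cases h0 : c χ = 0
    · simp [h0]
    simp only [Pi.sub_apply, sub_mul, Finset.sum_sub_distrib,
      sum_Fs_class _ χ.2.isClassFunction, one_mul]
    by_cases h1 : χ.1 = fun _ => 1
    · have : (Nat.card H : ℂ) * χ.1 s - ∑ g, χ.1 g = 0 := by simp [h1]
      rw [this, norm_zero]
      simp only [ne_eq, OfNat.ofNat_ne_zero, not_false_eq_true, zero_pow, mul_zero, zero_div]
      positivity
    obtain ⟨a1, b, a2, hb⟩ := key χ h1 h0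
    have a3 : (b : ℝ) ^ 2 ≤ B := by exact_mod_cast hB b a2
    have d1 : 0 < (χ.1 1).re := lt_of_lt_of_le hhn a1
    rw [χ.2.sum_eq_zero h1, sub_zero, hb s hs s1, norm_mul, mul_pow, Complex.norm_natCast,
      Complex.norm_intCast, sq_abs, div_mul_eq_mul_div, div_le_div_iff₀ d1 (by positivity)]
    have a4 : ((h : ℝ) - n) ^ 2 ≤ (χ.1 1).re ^ 2 := by gcongr
    calc _ = c χ * (Nat.card H : ℝ) ^ 2 * ((b : ℝ) ^ 2 * (h - n) ^ 2) := by ring
      _ ≤ c χ * (Nat.card H : ℝ) ^ 2 * (B * (χ.1 1).re ^ 2) := by gcongr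
      _ = _ := by ring
  refine ⟨D.ci hS hP hsr, fun s hs s1 y _ z hz => ?_, fun s hs s1 y _ z hz w hw zw => ?_⟩
  · obtain ⟨k, -, rfl⟩ := hz
    have h1 := tot s hs (by simpa using s1)
    have h2 := orbF_val s y k
    have h3 : ∑ w ∈ orbF H (y, k • y), ‖Mw (Fs s - fun _ => 1) w‖ ^ 2 ≤
        ∑ p : P × P, ‖Mw (Fs s - fun _ => 1) p‖ ^ 2 :=
      Finset.sum_le_univ_sum_of_nonneg fun _ => by positivity
    rw [Set.ncard_univ]
    have h4 : ((Nn s y (k • y) : ℝ) - sd H y (k • y)) ^ 2 * ((h : ℝ) - n) ^ 2 ≤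
        B * (orb (⊤ : Subgroup H) y).ncard * Nat.card P * sd H y (k • y) := by
      refine le_of_mul_le_mul_left ?_ (pow_pos H1 2)
      rw [← mul_assoc, ← h2]
      calc _ ≤ (∑ p : P × P, ‖Mw (Fs s - fun _ => 1) p‖ ^ 2) *
            ((orb (⊤ : Subgroup H) y).ncard * sd H y (k • y)) * ((h : ℝ) - n) ^ 2 := by gcongr
        _ = (∑ p : P × P, ‖Mw (Fs s - fun _ => 1) p‖ ^ 2) * ((h : ℝ) - n) ^ 2 *
            ((orb (⊤ : Subgroup H) y).ncard * sd H y (k • y)) := by ring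
        _ ≤ (Nat.card H : ℝ) ^ 2 * B * Nat.card P *
            ((orb (⊤ : Subgroup H) y).ncard * sd H y (k • y)) := by gcongr
        _ = _ := by ring
    exact_mod_cast h4
  · obtain ⟨k, -, rfl⟩ := hz
    obtain ⟨l, -, rfl⟩ := hw
    have h1 := tot s hs (by simpa using s1)
    have h2 := orbF_val s y k
    have h2' := orbF_val s y l
    have dj : Disjoint (orbF H (y, k • y)) (orbF H (y, l • y)) := by
      refine Finset.disjoint_left.2 fun p hp hp' => zw ?_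
      obtain ⟨a, rfl⟩ := mem_orbF.1 hp
      obtain ⟨b, e⟩ := mem_orbF.1 hp'
      simp only [Prod.smul_mk, Prod.mk.injEq] at e
      exact ⟨b⁻¹ * a, by rw [mem_stabilizer_iff, mul_smul, ← e.1, inv_smul_smul],
        by rw [mul_smul, ← e.2, inv_smul_smul]⟩
    have h3 : ∑ w ∈ orbF H (y, k • y), ‖Mw (Fs s - fun _ => 1) w‖ ^ 2 +
        ∑ w ∈ orbF H (y, l • y), ‖Mw (Fs s - fun _ => 1) w‖ ^ 2 ≤
        ∑ p : P × P, ‖Mw (Fs s - fun _ => 1) p‖ ^ 2 := by
      rw [← Finset.sum_union dj]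
      exact Finset.sum_le_univ_sum_of_nonneg fun _ => by positivity
    rw [Set.ncard_univ]
    have h4 : (((Nn s y (k • y) : ℝ) - sd H y (k • y)) ^ 2 * sd H y (l • y) +
        ((Nn s y (l • y) : ℝ) - sd H y (l • y)) ^ 2 * sd H y (k • y)) * ((h : ℝ) - n) ^ 2 ≤
        B * (orb (⊤ : Subgroup H) y).ncard * Nat.card P * (sd H y (k • y) * sd H y (l • y)) := by
      refine le_of_mul_le_mul_left ?_ (pow_pos H1 2)
      generalize ∑ w ∈ orbF H (y, k • y), ‖Mw (Fs s - fun _ => 1) w‖ ^ 2 = A at *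
      generalize ∑ w ∈ orbF H (y, l • y), ‖Mw (Fs s - fun _ => 1) w‖ ^ 2 = A' at *
      generalize ∑ p : P × P, ‖Mw (Fs s - fun _ => 1) p‖ ^ 2 = T at *
      calc _ = (A + A') * ((h : ℝ) - n) ^ 2 *
            ((orb (⊤ : Subgroup H) y).ncard * sd H y (k • y) * sd H y (l • y)) := by
            linear_combination (-(sd H y (l • y) : ℝ) * ((h : ℝ) - n) ^ 2) * h2 -
              (sd H y (k • y) : ℝ) * ((h : ℝ) - n) ^ 2 * h2'
        _ ≤ T * ((h : ℝ) - n) ^ 2 *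
            ((orb (⊤ : Subgroup H) y).ncard * sd H y (k • y) * sd H y (l • y)) := by gcongr
        _ ≤ (Nat.card H : ℝ) ^ 2 * B * Nat.card P *
            ((orb (⊤ : Subgroup H) y).ncard * sd H y (k • y) * sd H y (l • y)) := by gcongr
        _ = _ := by ring
    exact_mod_cast h4

/-- Copy `Sing.TIZ.dich` (file `Sing/ChZ`), transporting `TId.cj` instead of `TId.ci` (also
`(orb ⊤ y).ncard`, `P.ncard = Nat.card P` and the condition `w ∉ orb (stabilizer G y) z`). -/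
theorem TIZ.dich' {G : Type*} [Group G] [Finite G] {Z S N : Subgroup G} {σ : G} {n h B : ℕ}
    (D : TIZ Z S N σ n h) {α : Type*} [MulAction G α] {P : Set α} (hf : P.Finite)
    (hi : Inv (⊤ : Subgroup G) P) (hP : P.ncard ≤ n * h) (hZ : ∀ z ∈ Z, ∀ p ∈ P, z • p = p)
    (hsr : ∀ s ∈ S, ∀ p ∈ P, s • p = p → s ∈ Z) (hB : ∀ b : ℤ, b ^ 2 ≤ n → b ^ 2 ≤ B) :
    CJ Z S P n h B ∨ CII S N P := by
  have := D.nZ
  letI : MulAction G P :=
    { smul := fun g p => ⟨g • p.1, hi g trivial p p.2⟩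
      one_smul := fun p => Subtype.ext (one_smul _ _)
      mul_smul := fun a b p => Subtype.ext (mul_smul _ _ _) }
  letI : MulAction (G ⧸ Z) P := MulAction.compHom P (QuotientGroup.lift Z (toPermHom G P)
    fun z hz => Equiv.ext fun p => Subtype.ext (hZ z hz p p.2))
  have k : ∀ (g : G) (p : P), ((QuotientGroup.mk' Z g • p : P) : α) = g • p.1 := fun _ _ => rfl
  have sj := QuotientGroup.mk'_surjective Z
  have hk := QuotientGroup.ker_mk' Z
  generalize QuotientGroup.mk' Z = f at k sj hk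
  have T := D.tid sj hk
  have : Finite P := hf
  have hs : ∀ s ∈ S.map f, ∀ p : P, s • p = p → s = 1 := by
    rintro _ ⟨s, hs, rfl⟩ p e
    rw [← MonoidHom.mem_ker, hk]
    exact hsr s hs p p.2 ((k s p).symm.trans (congrArg Subtype.val e))
  rcases T.dich hs with e | ⟨R, r1, r2, r3⟩
  · have C := TId.cj T e hP hs hB
    have nz : ∀ s, s ∉ Z → f s ∉ (⊥ : Subgroup (G ⧸ Z)) := fun s h1 h2 => h1 (hk ▸ h2)
    have e1 : ∀ (s : G) (y z : P), Nn s y.1 z.1 = Nn (f s) y z := fun s y z => by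
      rw [Nn, Nn, ← Set.ncard_image_of_injective _ Subtype.val_injective]
      congr 1
      ext w
      constructor
      · rintro ⟨g, rfl, e⟩
        exact ⟨f g • y, ⟨f g, rfl, Subtype.ext (by rw [k, k, k, e])⟩, k g y⟩
      · rintro ⟨_, ⟨g, rfl, e⟩, rfl⟩
        obtain ⟨g, rfl⟩ := sj g
        exact ⟨g, (k g y).symm, by rw [← k, e, k]⟩
    have e2 : ∀ y z : P, (orb (stabilizer G y.1) z.1).ncard = (orb (stabilizer (G ⧸ Z) y) z).ncard := fun y z => by
      rw [← Set.ncard_image_of_injective _ Subtype.val_injective]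
      congr 1
      ext w
      constructor
      · rintro ⟨g, e, rfl⟩
        exact ⟨f g • z, ⟨f g, Subtype.ext ((k g y).trans e), rfl⟩, k g z⟩
      · rintro ⟨_, ⟨g, e, rfl⟩, rfl⟩
        obtain ⟨g, rfl⟩ := sj g
        exact ⟨g, (k g y).symm.trans (congrArg Subtype.val e), (k g z).symm⟩
    have e3 : ∀ y : P, (orb (⊤ : Subgroup G) y.1).ncard = (orb (⊤ : Subgroup (G ⧸ Z)) y).ncard :=
      fun y => by
      rw [← Set.ncard_image_of_injective _ Subtype.val_injective]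
      congr 1
      ext w
      constructor
      · rintro ⟨g, -, rfl⟩
        exact ⟨f g • y, ⟨f g, trivial, rfl⟩, k g y⟩
      · rintro ⟨_, ⟨g, -, rfl⟩, rfl⟩
        obtain ⟨g, rfl⟩ := sj g
        exact ⟨g, trivial, (k g y).symm⟩
    have e4 : (Set.univ : Set P).ncard = P.ncard := by rw [Set.ncard_univ, Nat.card_coe_set_eq]
    refine Or.inl ⟨⟨fun s hs s1 t ht t1 y hy z hz => ?_, fun s hs s1 y hy z ⟨g, _, e⟩ => ?_⟩,
      fun s hs s1 y hy z ⟨g, _, e⟩ => ?_, fun s hs s1 y hy z ⟨g, _, e⟩ w ⟨g', _, e'⟩ zw => ?_⟩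
    · exact (e1 s ⟨y, hy⟩ ⟨z, hz⟩).trans ((C.ci.c1 _ ⟨s, hs, rfl⟩ (nz s s1) _ ⟨t, ht, rfl⟩ (nz t t1) _
        trivial _ trivial).trans (e1 t ⟨y, hy⟩ ⟨z, hz⟩).symm)
    · have := C.ci.c2 _ ⟨s, hs, rfl⟩ (nz s s1) ⟨y, hy⟩ trivial _ ⟨f g, trivial, rfl⟩
      rwa [← e1, ← e2, k, e] at this
    · have := C.one _ ⟨s, hs, rfl⟩ (nz s s1) ⟨y, hy⟩ trivial _ ⟨f g, trivial, rfl⟩
      unfold sd at this ⊢
      rwa [← e1, ← e2, ← e3, e4, k, e] at this
    · have := C.two _ ⟨s, hs, rfl⟩ (nz s s1) ⟨y, hy⟩ trivial _ ⟨f g, trivial, rfl⟩ _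
        ⟨f g', trivial, rfl⟩ fun ⟨u, u1, u2⟩ => zw (by
          obtain ⟨u, rfl⟩ := sj u
          refine ⟨u, (k u ⟨y, hy⟩).symm.trans (congrArg Subtype.val u1), ?_⟩
          have := congrArg Subtype.val u2
          rwa [k, k, k, e, e'] at this)
      unfold sd at this ⊢
      rwa [← e1, ← e1, ← e2, ← e2, ← e3, e4, k, k, e, e'] at this
  · refine Or.inr ⟨R.comap f, fun g hg r hr => by simpa using r1 _ ⟨g, hg, rfl⟩ _ hr, fun g => ?_,
      fun r hr s hs p hp e => ?_⟩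
    · obtain ⟨r, hr, _, ⟨u, hu, rfl⟩, e⟩ := r2 (f g)
      exact ⟨g * u⁻¹, by simpa [e] using hr, u, hu, by simp⟩
    · exact (k r ⟨p, hp⟩).symm.trans (congrArg Subtype.val
        (r3 _ hr _ ⟨s, hs, rfl⟩ ⟨p, hp⟩ trivial (Subtype.ext (by rw [k, k, e]))))

end Cfsg.Agent.Sing.E7
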