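import Cfsg.Agent.Sg7.KFld
import Cfsg.Agent.Sg7.CDef

/-!
# From the character theory to the geometric inequalities (`n = 7 ∣ q - 1`)

Port of `Sg11/G1.lean` (copy it, namespace `E7`).  `h = |orb sS (F∙1)|`, `7 h = geo q 7 = |pts|`,
`q ≥ 8`, so `h ≥ 42799`; `B = 4`.  Unchanged: `g1_count, g1_wdc, g1_comm, g1_one, g1_q, g1_cl,
g1_orb, g1_s, Nn_eq, g1_le, g1_two, k1, k2, gh` (use `C.ci.c1`, `C.ci.c2`).  Changes:

* `g1_h` is replaced by: `42799 ≤ h`, `347 q² < h`, `392 q (q+1) < h`, `1008 (q-1)(q-2) + 1 < h`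
  (all from `7 h = geo q 7`, put `q = t + 8`; the last one is tight: `q = 8`: `42337 < 42799`).
* `g1_half` (`h ≤ 2 κ` from `h ≤ N`, `(N - κ)² ≤ 2·7³ κ`) only needs `4·7³ ≤ h`.
* `k3`: needs only `2·7⁵ = 33614 ≤ geo q 6` (`geo 8 6 = 37449`).
* `g1_eq`/`g1_rs`: `z, w` on the line `L = pl y z`, `κ = ρ a`, `κ' = ρ a'` (`a, a'` orbit lengths of
  `A = ps y ⊓ stabilizer L`), `Nn = h b`, `h b'`.  If `F∙w ∈ orb (ps y) (F∙z)` then `κ = κ'`, so
  `a = a'`, and `Nn s y z = Nn s y w` (unfold `Nn`), so `b = b'`.  Otherwise the two `A`-orbits are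
  disjoint sets of points of `L` other than `F∙y`, so `a + a' ≤ q`, `4 a a' ≤ q²`; the two
  `ps y`-orbits are disjoint, so `ρ (a + a') ≤ 7 h`.  With `e = h b - ρ a`, `e' = h b' - ρ a'`,
  `C.two` says `(e² a' + e'² a) (h-7)² ≤ 4 (7h)² ρ a a'`, and
  `(a' e - a e')² ≤ (e² a' + e'² a)(a + a')` (difference `= a a' (e + e')²`... check:
  `(e² a' + e'² a)(a + a') - (a' e - a e')² = a a' (e + e')²`).  As `a' e - a e' = h (a' b - a b')`,
  `a' b ≠ a b'` gives `h² (h-7)² ≤ 196 h² · 7 h · q²/4`, i.e. `(h-7)² ≤ 343 q² h`, false since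
  `347 q² < h`, `h ≥ 42799`.
* `Nn_pos`: suppose `Nn s y z = 0`; `C.one` gives `κ (h-7)² ≤ 4 |Ω| 7h`, `Ω = Om y`.  Take `u, v, t`
  from `g1_two`, `Ω' = Om u`, `κ' = sd u v`, `m = |G_u ⊓ G_v|`; as in the original,
  `|Ω'| κ' m = |Ω| κ |G_y ⊓ G_z| ≤ |Ω| κ |G_L|`.
  (i) `Ω' = Ω`: `κ ≤ 196`, `|G_L| ≤ (q+1) q m` (the line has `q + 1` points; the orbit of `v` under
  `G_L ⊓ G_u` misses `u`), so `h ≤ 2 κ' ≤ 392 q (q+1)`, false.
  (ii) `Ω' ≠ Ω` (disjoint): `|Ω| ≤ 6 h` (`|Ω'| ≥ h`), so `κ ≤ 168`; the `G_L`-orbits of `u, v` lie in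
  `Ω'`, miss `F∙y, F∙z`, so `|G_L| ≤ (q-1)(q-2) m`.  And `h (h-1) ≤ |Ω'| κ'`: for every `s' ∈ S \ Z`,
  `Nn s' u v = Nn t u v ≥ h` (`c1`, `g1_le`); count the pairs `(p, p')` in the orbital of `(u, v)`
  (there are `|Ω'| κ'`) with `p' ∈ orb S p`, `p' ≠ p`: for each of the `h - 1` points
  `x ≠ F∙1` of `orb S (F∙1)` pick `s_x ∈ S` with `s_x • F∙1 = x`; `(x, p) ↦ (p, s_x p)` is injective
  (`s_x p = s_x' p ⇒ s_x⁻¹ s_x' ∈ Z` by `semireg`).  So `h - 1 ≤ 1008 (q-1)(q-2)`, false.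
-/

set_option autoImplicit false
set_option linter.unusedSectionVars false
set_option linter.style.haveILetI false

namespace Cfsg.Agent.Sing.E7

open MulAction Pointwise Cfsg.Agent.Proj.CK

theorem g1_count {α : Type*} [Finite α] {W B : Set α} {r : α → Set α} {h : ℕ}
    (h1 : ∀ b ∈ B, r b ⊆ W ∧ (r b).ncard = h) (h2 : ∀ w ∈ W, ∃! b, b ∈ B ∧ w ∈ r b) :
    W.ncard = h * B.ncard := by
  classical
  have := Fintype.ofFinite α
  have := Finset.card_mul_eq_card_mul (s := W.toFinset) (t := B.toFinset) (fun w b => w ∈ r b)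
    (m := 1) (n := h) (fun w hw => by
      obtain ⟨b, hb, e⟩ := h2 w (Set.mem_toFinset.1 hw)
      exact Finset.card_eq_one.2 ⟨b, Finset.ext fun c => by
        simpa using ⟨fun h => e c h, fun h => h ▸ hb⟩⟩) fun b hb => by
      obtain ⟨a1, a2⟩ := h1 b (Set.mem_toFinset.1 hb)
      rw [← a2, Set.ncard_eq_toFinset_card']
      congr 1
      ext w
      simpa using fun h => a1 h
  rw [Set.ncard_eq_toFinset_card', Set.ncard_eq_toFinset_card']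
  linarith

theorem g1_wdc {α : Type*} [Finite α] {X B : Set α} {r : α → α → Prop} {m : α → ℕ} {μ : ℕ}
    (h1 : ∀ x ∈ X, 0 < m x ∧ m x ≤ μ * {b | b ∈ B ∧ r x b}.ncard)
    (h2 : ∀ b ∈ B, ∀ x ∈ X, r x b → {x | x ∈ X ∧ r x b}.ncard ≤ m x) : X.ncard ≤ B.ncard * μ := by
  classical
  have := Fintype.ofFinite α
  have e1 : ∀ x, {b | b ∈ B ∧ r x b}.ncard = (B.toFinset.filter (r x)).card := fun x => by
    rw [Set.ncard_eq_toFinset_card']; congr 1; ext; simp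
  have e2 : ∀ b, {x | x ∈ X ∧ r x b}.ncard = (X.toFinset.filter (r · b)).card := fun x => by
    rw [Set.ncard_eq_toFinset_card']; congr 1; ext; simp
  simp only [e1, e2] at h1 h2
  rw [Set.ncard_eq_toFinset_card', Set.ncard_eq_toFinset_card', ← Nat.cast_le (α := ℚ)]
  calc (X.toFinset.card : ℚ) = ∑ _x ∈ X.toFinset, 1 := by simp
    _ ≤ ∑ x ∈ X.toFinset, ∑ b ∈ B.toFinset with r x b, (μ : ℚ) / m x := Finset.sum_le_sum fun x hx => by
      obtain ⟨a1, a2⟩ := h1 x (Set.mem_toFinset.1 hx)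
      rw [Finset.sum_const, nsmul_eq_mul, ← mul_div_assoc, le_div_iff₀ (by exact_mod_cast a1), one_mul,
        mul_comm]
      exact_mod_cast a2
    _ = ∑ b ∈ B.toFinset, ∑ x ∈ X.toFinset with r x b, (μ : ℚ) / m x := by
      simp only [Finset.sum_filter]; exact Finset.sum_comm
    _ ≤ ∑ _b ∈ B.toFinset, (μ : ℚ) := Finset.sum_le_sum fun b hb => by
      refine (Finset.sum_le_card_nsmul _ _ ((μ : ℚ) / (X.toFinset.filter (r · b)).card)
        fun x hx => div_le_div_of_nonneg_left (by positivity)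
          (by exact_mod_cast Finset.card_pos.2 ⟨x, hx⟩) ?_).trans ?_
      · rw [Finset.mem_filter, Set.mem_toFinset] at hx
        exact_mod_cast h2 b (Set.mem_toFinset.1 hb) x hx.1 hx.2
      · rw [nsmul_eq_mul]
        rcases Nat.eq_zero_or_pos (X.toFinset.filter (r · b)).card with e | e
        · simp [e]
        · rw [mul_div_cancel₀ _ (by exact_mod_cast e.ne')]
    _ = _ := by simp

theorem g1_cnt {α β : Type*} [Finite α] [Finite β] {s : Set α} {t : Set β} (r : α → β → Prop) {m : ℕ}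
    (h1 : ∀ a ∈ s, m ≤ {b | b ∈ t ∧ r a b}.ncard)
    (h2 : ∀ b ∈ t, ∀ a ∈ s, ∀ a' ∈ s, r a b → r a' b → a = a') : s.ncard * m ≤ t.ncard := by
  classical
  rw [Set.ncard_eq_toFinset_card s, Set.ncard_eq_toFinset_card t, ← mul_one (Finset.card (t.toFinite.toFinset))]
  refine Finset.card_mul_le_card_mul r (fun a ha => ?_) fun b hb => ?_
  · refine (h1 a (by simpa using ha)).trans (le_of_eq ?_)
    rw [← Set.ncard_coe_finset]; congr 1; ext b; simp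
  · refine Finset.card_le_one.2 fun a ha a' ha' => ?_
    simp only [Finset.mem_bipartiteBelow, Set.Finite.mem_toFinset] at ha ha' hb
    exact h2 b hb a ha.1 a' ha'.1 ha.2 ha'.2

theorem g1_num {q h : ℕ} (hq : 7 < q) (e : 7 * h = geo q 7) : 42799 ≤ h ∧ 347 * q ^ 2 < h ∧
    392 * (q * (q + 1)) < h ∧ 1008 * ((q - 1) * (q - 2)) + 1 < h := by
  obtain ⟨t, rfl⟩ := Nat.exists_eq_add_of_le' (show 8 ≤ q from hq)
  rw [show t + 8 - 1 = t + 7 from rfl, show t + 8 - 2 = t + 6 from rfl]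
  have e' : 7 * h = t ^ 6 + 49 * t ^ 5 + 1001 * t ^ 4 + 10913 * t ^ 3 + 66969 * t ^ 2 + 219345 * t +
      299593 := by
    rw [e]; simp only [geo, Finset.sum_range_succ, Finset.sum_range_zero]; ring
  have e1 : (t + 8) ^ 2 = t ^ 2 + 16 * t + 64 := by ring
  have e2 : (t + 8) * (t + 8 + 1) = t ^ 2 + 17 * t + 72 := by ring
  have e3 : (t + 7) * (t + 6) = t ^ 2 + 13 * t + 42 := by ring
  rw [e1, e2, e3]
  generalize t ^ 6 = a at *
  generalize t ^ 5 = b at *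
  generalize t ^ 4 = c at *
  generalize t ^ 3 = d at *
  generalize t ^ 2 = f at *
  omega

theorem g1_num6 {q : ℕ} (hq : 7 < q) : 33614 ≤ geo q 6 := by
  have a := Nat.pow_le_pow_left (show 8 ≤ q from hq) 5
  have b := Nat.pow_le_pow_left (show 8 ≤ q from hq) 4
  simp only [geo, Finset.sum_range_succ, Finset.sum_range_zero]
  omega

theorem g1_half {N κ h : ℕ} (h1 : h ≤ N) (h2 : ((N : ℤ) - κ) ^ 2 ≤ 2 * (7 : ℕ) ^ 3 * κ)
    (h4 : 42799 ≤ h) : h ≤ 2 * κ := by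
  by_contra! c
  push_cast at h2
  zify at h1 c h4
  have : (0 : ℤ) ≤ κ := by positivity
  nlinarith [mul_self_le_mul_self (show (0 : ℤ) ≤ h - κ by omega) (show (h : ℤ) - κ ≤ N - κ by omega)]

theorem g1_eq {a b a' b' h ρ q O : ℕ}
    (h1 : ((((h * b : ℕ) : ℤ) - (ρ * a : ℕ)) ^ 2 * (ρ * a' : ℕ) +
      (((h * b' : ℕ) : ℤ) - (ρ * a' : ℕ)) ^ 2 * (ρ * a : ℕ)) * ((h : ℤ) - (7 : ℕ)) ^ 2 ≤
      (4 : ℕ) * O * (7 * h : ℕ) * ((ρ * a : ℕ) * (ρ * a' : ℕ)))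
    (hO : O ≤ 7 * h) (k : ρ * a + ρ * a' ≤ 7 * h) (m : a + a' ≤ q) (ρ0 : 0 < ρ) (h3 : 347 * q ^ 2 < h)
    (h4 : 42799 ≤ h) : a' * b = a * b' := by
  push_cast at h1
  zify at hO k m ρ0 h3 h4 ⊢
  set e := (h : ℤ) * b - ρ * a with he
  set e' := (h : ℤ) * b' - ρ * a' with he'
  have a0 : (0 : ℤ) ≤ a := by positivity
  have a0' : (0 : ℤ) ≤ a' := by positivity
  have h0 : (0 : ℤ) < h := by omega
  have b1 : (e ^ 2 * a' + e' ^ 2 * a) * (h - 7) ^ 2 ≤ 4 * O * (7 * h) * (ρ * (a * a')) :=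
    le_of_mul_le_mul_left (by linarith) ρ0
  have b2 : 4 * (O : ℤ) * (7 * h) * (ρ * (a * a')) ≤ 4 * (7 * h) * (7 * h) * (ρ * (a * a')) := by
    gcongr
  have b3 : 4 * ((a : ℤ) * a') ≤ q ^ 2 := by
    nlinarith [sq_nonneg ((a : ℤ) - a'), pow_le_pow_left₀ (add_nonneg a0 a0') m 2]
  have b4 : (ρ * a + ρ * a' : ℤ) * (4 * (a * a')) ≤ 7 * h * q ^ 2 :=
    mul_le_mul k b3 (by positivity) (by positivity)
  by_contra ne
  have d : 1 ≤ ((a' : ℤ) * b - a * b') ^ 2 := by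
    have := sq_pos_of_ne_zero (sub_ne_zero.2 ne); omega
  have e3 : h * ((a' : ℤ) * b - a * b') = a' * e - a * e' := by rw [he, he']; ring
  have b5 : (h : ℤ) ^ 2 ≤ (a' * e - a * e') ^ 2 := by
    rw [← e3, mul_pow]; exact le_mul_of_one_le_right (by positivity) d
  have b6 : (a' * e - a * e') ^ 2 ≤ (e ^ 2 * a' + e' ^ 2 * a) * (a + a') := by
    have : (0 : ℤ) ≤ a * a' * (e + e') ^ 2 := by positivity
    linarith
  have b7 : (h : ℤ) ^ 2 * (h - 7) ^ 2 ≤ h ^ 2 * (343 * h * q ^ 2) := calc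
    (h : ℤ) ^ 2 * (h - 7) ^ 2 ≤ (e ^ 2 * a' + e' ^ 2 * a) * (a + a') * (h - 7) ^ 2 :=
      mul_le_mul_of_nonneg_right (b5.trans b6) (sq_nonneg _)
    _ = (e ^ 2 * a' + e' ^ 2 * a) * (h - 7) ^ 2 * (a + a') := by ring
    _ ≤ 4 * (7 * h) * (7 * h) * (ρ * (a * a')) * (a + a') :=
      mul_le_mul_of_nonneg_right (b1.trans b2) (add_nonneg a0 a0')
    _ = 49 * h ^ 2 * ((ρ * a + ρ * a') * (4 * (a * a'))) := by ring
    _ ≤ 49 * h ^ 2 * (7 * h * q ^ 2) := mul_le_mul_of_nonneg_left b4 (by positivity)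
    _ = _ := by ring
  have b8 := le_of_mul_le_mul_left b7 (by positivity)
  nlinarith [mul_lt_mul_of_pos_left h3 h0]

theorem g1_kap {κ h O c : ℕ} (h1 : ((((0 : ℕ) : ℤ) - κ) ^ 2 * ((h : ℤ) - (7 : ℕ)) ^ 2 ≤
      (4 : ℕ) * O * (7 * h : ℕ) * κ)) (hO : O ≤ c * h) (hc : c ≤ 7) (h4 : 42799 ≤ h) : κ ≤ 28 * c := by
  by_contra! k
  push_cast at h1
  zify at hO hc h4
  have k' : (28 * c + 1 : ℤ) ≤ κ := by exact_mod_cast k
  have c0 : (0 : ℤ) ≤ c := by positivity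
  have k0 : (0 : ℤ) < κ := by omega
  have b1 : (κ : ℤ) * (h - 7) ^ 2 ≤ 4 * O * (7 * h) := le_of_mul_le_mul_left (by linarith) k0
  have b2 : 4 * (O : ℤ) * (7 * h) ≤ 4 * (c * h) * (7 * h) := by gcongr
  have b3 := mul_le_mul_of_nonneg_right k' (sq_nonneg ((h : ℤ) - 7))
  have b4 : (c : ℤ) * h ≤ 7 * h := by gcongr
  nlinarith

variable {F K G : Type*} [Field F] [Field K] [Algebra F K] [Finite F] [Finite K] [Group G]
  [Finite G] [DistribMulAction G K] [SMulCommClass G F K] {σ : G}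

theorem g1_comm {s t : G} (hs : s ∈ sS K G) (ht : t ∈ sS K G) (x : K) :
    s • t • (F ∙ x) = t • s • (F ∙ x) := by
  obtain ⟨k, hk⟩ := hs
  obtain ⟨l, hl⟩ := ht
  simp only [smul_pt, hk, hl, mul_left_comm]

variable (F) in
/-- the points of a line -/
def Lp (y z : K) : Set (Submodule F K) := {p | p ∈ pts F K ∧ p ≤ pl F y z}

theorem g1_Lp (y z : K) : (Lp F y z).ncard ≤ Nat.card F + 1 := by
  have : Lp F y z ⊆ insert (F ∙ y) ((fun c : F => F ∙ (c • y + z)) '' Set.univ) := by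
    rintro _ ⟨⟨x, x0, rfl⟩, hx⟩
    obtain ⟨a, b, rfl⟩ := mem_pl.1 (pt_le.1 hx)
    by_cases b0 : b = 0
    · subst b0
      exact Or.inl (pt_eq_of_mem x0 (by rw [zero_smul, add_zero]; exact smul_mem_pt a y))
    · refine Or.inr ⟨b⁻¹ * a, trivial, pt_eq_iff.2 ⟨b, b0, ?_⟩⟩
      rw [smul_add, smul_smul, mul_inv_cancel_left₀ b0]
  refine (Set.ncard_le_ncard this).trans ((Set.ncard_insert_le _ _).trans ?_)
  exact Nat.add_le_add_right ((Set.ncard_image_le).trans (Set.ncard_univ F).le) 1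

theorem g1_LpI {y z : K} {A : Subgroup G} (hA : A ≤ stabilizer G (pl F y z)) {x : K} (x0 : x ≠ 0)
    (hx : x ∈ pl F y z) : orb A (F ∙ x) ⊆ Lp F y z := by
  rintro _ ⟨g, hg, rfl⟩
  rw [smul_pt]
  exact ⟨pt_mem_pts (smul_ne0 x0), pt_le.2 (stab_mem (hA hg) hx)⟩

theorem g1_sub {y z : K} {T E : Set (Submodule F K)} (hT : T ⊆ Lp F y z) (hE : E ⊆ Lp F y z)
    (h : Disjoint T E) : T.ncard + E.ncard ≤ Nat.card F + 1 := by
  rw [← Set.ncard_union_eq h]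
  exact (Set.ncard_le_ncard (Set.union_subset hT hE)).trans (g1_Lp y z)

theorem g1_miss {A : Subgroup G} {p p' : Submodule F K} (hA : A ≤ stabilizer G p) (h : p' ≠ p) :
    p ∉ orb A p' := by
  rintro ⟨g, hg, e⟩
  exact h (smul_left_cancel g (e.trans (hA hg).symm))

theorem g1_dis {A : Subgroup G} {p p' : Submodule F K} (h : p' ∉ orb A p) :
    Disjoint (orb A p) (orb A p') :=
  Set.disjoint_left.2 fun _ h1 h2 => h (orb_trans h1 (orb_symm h2))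

theorem g1_one {t : G} {u v : Submodule F K} (e : t • u = v) : 0 < Nn t u v :=
  (Set.ncard_pos (Set.toFinite _)).2 ⟨u, 1, one_smul _ _, by rw [one_smul, e]⟩

namespace Sg

variable (D : Sg F K σ 7) (hd : 7 ∣ Nat.card F - 1)
  (C : CJ (sZ F K G) (sS K G) (pts F K) 7 (orb (sS K G) (F ∙ (1 : K))).ncard 4)
include D hd

theorem g1_q : 7 < Nat.card F := by
  have := two_le_q (F := F)
  have := Nat.le_of_dvd (by omega) hd
  omega

theorem g1_cl {x : K} (hx : x ≠ 0) :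
    (orb (sS K G) (F ∙ x)).ncard = (orb (sS K G) (F ∙ (1 : K))).ncard :=
  Nat.eq_of_mul_eq_mul_left D.prime.pos
    ((D.mul_ncard_class hd hx).trans (D.mul_ncard_class hd one_ne_zero).symm)

theorem g1_h : 42799 ≤ (orb (sS K G) (F ∙ (1 : K))).ncard ∧
    347 * Nat.card F ^ 2 < (orb (sS K G) (F ∙ (1 : K))).ncard ∧
    392 * (Nat.card F * (Nat.card F + 1)) < (orb (sS K G) (F ∙ (1 : K))).ncard ∧
    1008 * ((Nat.card F - 1) * (Nat.card F - 2)) + 1 < (orb (sS K G) (F ∙ (1 : K))).ncard :=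
  g1_num (D.g1_q hd) (D.mul_ncard_class hd one_ne_zero)

theorem g1_P : (pts F K).ncard = 7 * (orb (sS K G) (F ∙ (1 : K))).ncard := by
  rw [D.mul_ncard_class hd one_ne_zero, ← D.rank, ← ncard_pts]

theorem g1_orb (A : Subgroup G) {x : K} (hx : x ≠ 0) :
    (orb A (F ∙ x)).ncard ≤ 7 * (orb (sS K G) (F ∙ (1 : K))).ncard := by
  rw [← D.g1_P hd]
  exact Set.ncard_le_ncard ((inv_pts A).orb_subset (pt_mem_pts hx))

theorem g1_orb2 (A : Subgroup G) {x w : K} (hx : x ≠ 0) (hw : w ≠ 0) (h : (F ∙ w) ∉ orb A (F ∙ x)) :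
    (orb A (F ∙ x)).ncard + (orb A (F ∙ w)).ncard ≤ 7 * (orb (sS K G) (F ∙ (1 : K))).ncard := by
  rw [← D.g1_P hd, ← Set.ncard_union_eq (g1_dis h)]
  exact Set.ncard_le_ncard (Set.union_subset ((inv_pts A).orb_subset (pt_mem_pts hx))
    ((inv_pts A).orb_subset (pt_mem_pts hw)))

theorem g1_s : ∃ s ∈ sS K G, s ∉ sZ F K G := by
  have h1 := (D.g1_h hd).1
  obtain ⟨_, ⟨s, hs, rfl⟩, e⟩ := Set.exists_ne_of_one_lt_ncard
    (lt_of_lt_of_le (by norm_num) h1) (F ∙ (1 : K))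
  exact ⟨s, hs, fun c => e (D.Z_triv s c _ (pt_mem_pts one_ne_zero))⟩

theorem Nn_eq {s : G} (hs : s ∈ sS K G) {y z : K} (hy : y ≠ 0) :
    Nn s (F ∙ y) (F ∙ z) = (orb (sS K G) (F ∙ (1 : K))).ncard *
      {p | σ • p = p ∧ ∃ g : G, g • (F ∙ y) = p ∧ g • (F ∙ z) = s • p}.ncard := by
  have iv : Inv (sS K G) {w | ∃ g : G, g • (F ∙ y) = w ∧ g • (F ∙ z) = s • w} := by
    rintro t ht _ ⟨g, rfl, e⟩
    exact ⟨t * g, mul_smul _ _ _, by rw [mul_smul, e, smul_pt, g1_comm ht hs]⟩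
  refine g1_count (r := orb (sS K G)) (fun b hb => ⟨iv.orb_subset hb.2, ?_⟩) ?_
  · obtain ⟨-, g, rfl, -⟩ := hb
    rw [smul_pt, D.g1_cl hd (smul_ne0 hy)]
  · rintro _ ⟨g, rfl, e⟩
    obtain ⟨p, ⟨h1, h2⟩, h3⟩ := D.exists_unique_fr hd (smul_ne0 (g := g) hy)
    rw [← smul_pt] at h1 h3
    exact ⟨p, ⟨⟨h2, iv.orb_subset ⟨g, rfl, e⟩ h1⟩, orb_symm h1⟩, fun b hb => h3 b ⟨orb_symm hb.2, hb.1.1⟩⟩

theorem g1_le {s : G} (hs : s ∈ sS K G) {y z : K} (hy : y ≠ 0) (h : 0 < Nn s (F ∙ y) (F ∙ z)) :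
    (orb (sS K G) (F ∙ (1 : K))).ncard ≤ Nn s (F ∙ y) (F ∙ z) := by
  rw [D.Nn_eq hd hs hy] at h ⊢
  exact Nat.le_mul_of_pos_right _ (Nat.pos_of_mul_pos_left h)

theorem g1_two {y z : K} (hy : y ≠ 0) (hz : z ∉ (F ∙ y)) : ∃ (u v : K) (t : G), u ≠ 0 ∧ v ∉ (F ∙ u) ∧
    pl F u v = pl F y z ∧ t ∈ sS K G ∧ t ∉ sZ F K G ∧ t • (F ∙ u) = F ∙ v := by
  have n0 : ∀ c : F, c • y + z ≠ 0 := fun c e =>
    hz (mem_pt.2 ⟨-c, by rw [neg_smul, neg_eq_iff_add_eq_zero, e]⟩)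
  choose f hf using fun c => (D.exists_unique_fr hd (n0 c)).exists
  obtain ⟨c, -, d, -, e1, e2⟩ := Set.exists_ne_map_eq_of_ncard_lt_of_maps_to (s := Set.univ)
    (t := {p | p ∈ pts F K ∧ σ • p = p}) (f := f)
    (by rw [D.ncard_fr hd, Set.ncard_univ]; exact D.g1_q hd)
    fun c _ => ⟨(inv_pts _).orb_subset (pt_mem_pts (n0 c)) (hf c).1, (hf c).2⟩
  obtain ⟨t, ht, e⟩ := orb_trans (hf c).1 (orb_symm (e2 ▸ (hf d).1))
  have k : d • y + z ∉ (F ∙ (c • y + z)) := fun k => by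
    obtain ⟨a, ha⟩ := mem_pt.1 k
    by_cases a1 : a = 1
    · rw [a1, one_smul, add_left_inj] at ha
      exact e1 (smul_left_injective F hy ha)
    · refine hz (mem_pt.2 ⟨(a - 1)⁻¹ * (d - a * c), ?_⟩)
      rw [mul_smul, inv_smul_eq_iff₀ (sub_ne_zero.2 a1)]
      linear_combination (norm := module) -ha
  refine ⟨_, _, t, n0 c, k, pl_eq_of_mem (mem_pl.2 ⟨c, 1, by simp⟩) (mem_pl.2 ⟨d, 1, by simp⟩) (n0 c) k,
    ht, fun hc => k ?_, e⟩
  rw [← D.Z_triv t hc _ (pt_mem_pts (n0 c)), e]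
  exact self_mem_pt _

include C

/-- counting the pairs `(p, s p)` in an orbital -/
theorem g1_big {u v : K} {t : G} (u0 : u ≠ 0) (v0 : v ≠ 0) (ht : t ∈ sS K G) (ht' : t ∉ sZ F K G)
    (tu : t • (F ∙ u) = F ∙ v) :
    ((orb (sS K G) (F ∙ (1 : K))).ncard - 1) * (orb (sS K G) (F ∙ (1 : K))).ncard *
      Nat.card ↥(ps F G u ⊓ ps F G v) ≤ Nat.card (⊤ : Subgroup G) := by
  have a := ncard_orb_mul (⊤ : Subgroup G) ((F ∙ u, F ∙ v) : Submodule F K × Submodule F K)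
  have b : (⊤ : Subgroup G) ⊓ stabilizer G ((F ∙ u, F ∙ v) : Submodule F K × Submodule F K) =
      ps F G u ⊓ ps F G v := by
    ext g
    simp [Prod.ext_iff]
  rw [b] at a
  rw [← a, ← Set.ncard_sdiff_singleton_of_mem (mem_orb_self (sS K G) (F ∙ (1 : K)))]
  refine Nat.mul_le_mul_right _ (g1_cnt
    (fun x p => ∃ s ∈ sS K G, s • (F ∙ (1 : K)) = x ∧ s • p.1 = p.2) ?_ ?_)
  · rintro _ ⟨⟨s, hs, rfl⟩, e⟩
    have hs' : s ∉ sZ F K G := fun c => e (D.Z_triv s c _ (pt_mem_pts one_ne_zero))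
    have c := D.g1_le hd ht u0 (g1_one tu)
    rw [C.ci.c1 t ht ht' s hs hs' _ (pt_mem_pts u0) _ (pt_mem_pts v0)] at c
    refine c.trans (Set.ncard_le_ncard_of_injOn (fun p => (p, s • p)) ?_
      fun _ _ _ _ h => (Prod.ext_iff.1 h).1)
    rintro _ ⟨g, rfl, e'⟩
    exact ⟨⟨g, trivial, Prod.ext rfl e'⟩, s, hs, rfl, rfl⟩
  · rintro _ ⟨g, -, rfl⟩ _ - _ - ⟨s, hs, rfl, e1⟩ ⟨s', hs', rfl, e2⟩
    have := D.semireg (s'⁻¹ * s) (mul_mem (inv_mem hs') hs) (g • (F ∙ u))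
      (inv_pts ⊤ g trivial _ (pt_mem_pts u0)) (by
        rw [mul_smul, inv_smul_eq_iff]; exact e1.trans e2.symm)
    have := D.Z_triv _ this _ (pt_mem_pts one_ne_zero)
    rwa [mul_smul, inv_smul_eq_iff] at this

theorem Nn_pos {s : G} (hs : s ∈ sS K G) (hs' : s ∉ sZ F K G) {y z : K} (hy : y ≠ 0)
    (hz : z ∉ (F ∙ y)) (h : (F ∙ z) ∈ Om F G y) : 0 < Nn s (F ∙ y) (F ∙ z) := by
  obtain ⟨u, v, t, u0, hv, e, ht, ht', tu⟩ := D.g1_two hd hy hz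
  have v0 := ne0_of_not_mem hv
  have z0 := ne0_of_not_mem hz
  have hq := D.g1_q hd
  obtain ⟨hh, -, hh1, hh2⟩ := D.g1_h hd
  have a1 := g1_half (D.g1_le hd ht u0 (g1_one tu))
    (C.ci.c2 t ht ht' _ (pt_mem_pts u0) _ ⟨t, trivial, tu⟩) hh
  have a2 := (D.g1_cl hd u0).ge.trans (Set.ncard_le_ncard (orb_mono (le_top (a := sS K G)) (F ∙ u)))
  have a3 := D.g1_orb hd ⊤ hy
  have b : ∀ y z : K, (orb (⊤ : Subgroup G) (F ∙ y)).ncard * ((orb (ps F G y) (F ∙ z)).ncard *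
      Nat.card ↥(ps F G y ⊓ ps F G z)) = Nat.card (⊤ : Subgroup G) := fun y z => by
    rw [ncard_orb_mul, ← ncard_orb_mul ⊤ (F ∙ y), top_inf_eq]
  have b2 := Subgroup.card_le_of_le (ps_inf_le_pl (F := F) (G := G) y z)
  have b3 : ∀ i j : ℕ, (orb (stabilizer G (pl F y z)) (F ∙ u)).ncard ≤ i →
      (orb (stabilizer G (pl F y z) ⊓ ps F G u) (F ∙ v)).ncard ≤ j →
      Nat.card (stabilizer G (pl F y z)) ≤ i * (j * Nat.card ↥(ps F G u ⊓ ps F G v)) := fun i j hi hj => by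
    rw [← ncard_orb_mul _ (F ∙ u), ← ncard_orb_mul _ (F ∙ v)]
    exact Nat.mul_le_mul hi (Nat.mul_le_mul hj (Subgroup.card_le_of_le (inf_le_inf_right _ inf_le_right)))
  have uL : u ∈ pl F y z := e ▸ left_mem_pl u v
  have vL : v ∈ pl F y z := e ▸ right_mem_pl u v
  have s1 := g1_LpI (G := G) le_rfl u0 uL
  have s2 := g1_LpI (A := stabilizer G (pl F y z) ⊓ ps F G u) inf_le_left v0 vL
  have vu : (F ∙ v) ≠ F ∙ u := fun c => hv (c ▸ self_mem_pt v)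
  have zy : (F ∙ y) ≠ F ∙ z := fun c => hz (c ▸ self_mem_pt z)
  have mu := g1_miss (A := stabilizer G (pl F y z) ⊓ ps F G u) inf_le_right vu
  have uP : (F ∙ u) ∈ Lp F y z := ⟨pt_mem_pts u0, pt_le.2 uL⟩
  have yP : (F ∙ y) ∈ Lp F y z := ⟨pt_mem_pts hy, pt_le_pl y z⟩
  have zP : (F ∙ z) ∈ Lp F y z := ⟨pt_mem_pts z0, pt_le_pl' y z⟩
  refine Nat.pos_of_ne_zero fun c => ?_
  have c2 := C.one s hs hs' _ (pt_mem_pts hy) _ h
  rw [c, D.g1_P hd] at c2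
  have m0 : 0 < Nat.card ↥(ps F G u ⊓ ps F G v) := Nat.card_pos
  by_cases hu : (F ∙ u) ∈ orb (⊤ : Subgroup G) (F ∙ y)
  · have c3 := g1_kap c2 a3 le_rfl hh
    have b1 := (b u v).trans (b y z).symm
    rw [orb_eq_of_mem hu] at b1
    replace b1 := Nat.eq_of_mul_eq_mul_left (ncard_orb_pos _ _) b1
    have d1 := (Set.ncard_le_ncard s1).trans (g1_Lp y z)
    have d2 := g1_sub s2 (Set.singleton_subset_iff.2 uP) (Set.disjoint_singleton_right.2 mu)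
    rw [Set.ncard_singleton] at d2
    have d3 := Nat.mul_le_mul c3 (b2.trans (b3 _ _ d1 (Nat.le_of_add_le_add_right d2)))
    have d4 := b1.le.trans d3
    rw [← mul_assoc, ← mul_assoc] at d4
    have d5 := Nat.le_of_mul_le_mul_right d4 m0
    have d6 : 28 * 7 * (Nat.card F + 1) * Nat.card F = 196 * (Nat.card F * (Nat.card F + 1)) := by ring
    rw [d6] at d5
    unfold ps at d5
    omega
  · have a4 := D.g1_orb2 hd ⊤ hy u0 hu
    have a5 : (orb (⊤ : Subgroup G) (F ∙ y)).ncard ≤ 6 * (orb (sS K G) (F ∙ (1 : K))).ncard := by omega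
    have c3 := g1_kap c2 a5 (by norm_num) hh
    have ny : ∀ p ∈ orb (⊤ : Subgroup G) (F ∙ u), p ≠ (F ∙ y) ∧ p ≠ (F ∙ z) := fun p hp =>
      ⟨fun k => hu (orb_symm (k ▸ hp)), fun k => hu (orb_trans h (orb_symm (k ▸ hp)))⟩
    have uy := ny _ (mem_orb_self _ _)
    have d1 := g1_sub s1 (E := {F ∙ y, F ∙ z}) (Set.insert_subset yP (Set.singleton_subset_iff.2 zP))
      (Set.disjoint_left.2 fun p hp k => by
        have := ny p (orb_mono le_top _ hp)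
        rcases k with k | k
        · exact this.1 k
        · exact this.2 k)
    have d2 := g1_sub s2 (E := {F ∙ u, F ∙ y, F ∙ z})
      (Set.insert_subset uP (Set.insert_subset yP (Set.singleton_subset_iff.2 zP)))
      (Set.disjoint_left.2 fun p hp k => by
        have := ny p (orb_trans ⟨t, trivial, tu⟩ (orb_mono le_top _ hp))
        rcases k with k | k | k
        · exact mu (k ▸ hp)
        · exact this.1 k
        · exact this.2 k)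
    rw [Set.ncard_pair zy] at d1
    rw [Set.ncard_insert_of_notMem (by simp [uy.1, uy.2]), Set.ncard_pair zy] at d2
    have d3 := Nat.mul_le_mul a5 (Nat.mul_le_mul c3 (b2.trans (b3 (Nat.card F - 1) (Nat.card F - 2)
      (by omega) (by omega))))
    have d4 := ((D.g1_big hd C u0 v0 ht ht' tu).trans (b y z).ge).trans d3
    generalize (orb (sS K G) (F ∙ (1 : K))).ncard = h at *
    generalize Nat.card ↥(ps F G u ⊓ ps F G v) = m at *
    generalize Nat.card F - 1 = i at *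
    generalize Nat.card F - 2 = j at *
    have d5 : (h - 1) * (h * m) ≤ 1008 * (i * j) * (h * m) := by
      rw [← mul_assoc]; exact d4.trans (le_of_eq (by ring))
    have := Nat.le_of_mul_le_mul_right d5 (Nat.mul_pos (by omega) m0)
    omega

theorem g1_rs {s : G} (hs : s ∈ sS K G) (hs' : s ∉ sZ F K G) {y z : K} (hy : y ≠ 0) (hz : z ∉ (F ∙ y))
    (h : (F ∙ z) ∈ Om F G y) {B : Set (Submodule F K)}
    (hB' : ∀ x ∈ XX F G y z, ∀ g : G, σ • g • (F ∙ y) = g • (F ∙ y) → g • x = s • g • (F ∙ y) →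
      g • (F ∙ y) ∈ B) : (XX F G y z).ncard ≤ B.ncard * Sing.mu F G y z := by
  have hX : ∀ x ∈ XX F G y z, ∃ w, x = (F ∙ w) ∧ w ∉ (F ∙ y) ∧ w ∈ pl F y z ∧ pl F y w = pl F y z := by
    rintro _ ⟨⟨g, -, rfl⟩, h1, h2⟩
    rw [smul_pt] at h1 h2 ⊢
    have : g • y ∉ (F ∙ y) := fun c => h2 (pt_eq_of_mem (smul_ne0 hy) c)
    exact ⟨_, rfl, this, pt_le.1 h1, pl_eq_of_mem (left_mem_pl _ _) (pt_le.1 h1) hy this⟩
  have hκ : ∀ w, pl F y w = pl F y z → (orb (ps F G y) (F ∙ w)).ncard = (orb (ps F G y) (pl F y z)).ncard *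
      (orb (ps F G y ⊓ stabilizer G (pl F y z)) (F ∙ w)).ncard := fun w e => by
    rw [← orb_dc, show orb (ps F G y ⊓ stabilizer G (F ∙ w)) (pl F y z) = {pl F y z} from
      Set.eq_singleton_iff_unique_mem.2 ⟨mem_orb_self _ _, by
        rintro _ ⟨g, hg, rfl⟩; exact e ▸ ps_inf_le_pl y w hg⟩, Set.ncard_singleton, mul_one]
  refine g1_wdc (r := fun x p => ∃ g : G, g • (F ∙ y) = p ∧ g • x = s • p)
    (m := fun x => (orb (ps F G y ⊓ stabilizer G (pl F y z)) x).ncard)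
    (fun x hx => ⟨ncard_orb_pos _ _, ?_⟩) fun p _ x hx ⟨g, g1, g2⟩ => Set.ncard_le_ncard ?_
  · obtain ⟨w, rfl, w1, w2, w3⟩ := hX x hx
    have a5 := D.Nn_pos hd C hs hs' hy hz h
    have z0 := ne0_of_not_mem hz
    have w0 := ne0_of_not_mem w1
    obtain ⟨hh, hh1, -⟩ := D.g1_h hd
    have ρ0 := ncard_orb_pos (ps F G y) (pl F y z)
    have : (orb (ps F G y ⊓ stabilizer G (pl F y z)) (F ∙ w)).ncard *
        {p | σ • p = p ∧ ∃ g : G, g • (F ∙ y) = p ∧ g • (F ∙ z) = s • p}.ncard =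
        (orb (ps F G y ⊓ stabilizer G (pl F y z)) (F ∙ z)).ncard *
        {p | σ • p = p ∧ ∃ g : G, g • (F ∙ y) = p ∧ g • (F ∙ w) = s • p}.ncard := by
      by_cases hw : (F ∙ w) ∈ orb (ps F G y) (F ∙ z)
      · have e1 := (hκ w w3).symm.trans ((congrArg Set.ncard (orb_eq_of_mem hw)).trans (hκ z rfl))
        rw [Nat.eq_of_mul_eq_mul_left ρ0 e1]
        obtain ⟨k, hk, e2⟩ := hw
        rw [mem_stabilizer_iff] at hk
        congr 2
        ext p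
        refine and_congr_right fun _ => ⟨fun ⟨g, g1, g2⟩ => ⟨g * k⁻¹, ?_, ?_⟩,
          fun ⟨g, g1, g2⟩ => ⟨g * k, ?_, ?_⟩⟩
        · rw [mul_smul, inv_smul_eq_iff.2 hk.symm, g1]
        · rw [mul_smul, inv_smul_eq_iff.2 e2.symm, g2]
        · rw [mul_smul, hk, g1]
        · rw [mul_smul, e2, g2]
      · have a1 := C.two s hs hs' _ (pt_mem_pts hy) _ h _ hx.1 hw
        have a3 := D.g1_orb2 hd (ps F G y) z0 w0 hw
        have hw' : (F ∙ w) ∉ orb (ps F G y ⊓ stabilizer G (pl F y z)) (F ∙ z) :=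
          fun c => hw (orb_mono inf_le_left _ c)
        have a4 := g1_sub (Set.union_subset
          (g1_LpI (A := ps F G y ⊓ stabilizer G (pl F y z)) inf_le_right z0 (right_mem_pl y z))
          (g1_LpI (A := ps F G y ⊓ stabilizer G (pl F y z)) inf_le_right w0 w2))
          (Set.singleton_subset_iff.2 (⟨pt_mem_pts hy, pt_le_pl y z⟩ : (F ∙ y) ∈ Lp F y z))
          (Set.disjoint_singleton_right.2 fun c => c.elim
            (g1_miss inf_le_left fun c => hz (c ▸ self_mem_pt z))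
            (g1_miss inf_le_left fun c => w1 (c ▸ self_mem_pt w)))
        rw [Set.ncard_union_eq (g1_dis hw'), Set.ncard_singleton] at a4
        unfold sd at a1
        rw [D.Nn_eq hd hs hy, D.Nn_eq hd hs hy, D.g1_P hd] at a1
        rw [hκ z rfl, hκ w w3] at a1 a3
        exact g1_eq a1 (D.g1_orb hd ⊤ hy) a3 (Nat.le_of_add_le_add_right a4) ρ0 hh1 hh
    rw [D.Nn_eq hd hs hy] at a5
    refine (Nat.le_mul_of_pos_right _ (Nat.pos_of_mul_pos_left a5)).trans (this.le.trans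
      (Nat.mul_le_mul_left _ (Set.ncard_le_ncard ?_)))
    rintro _ ⟨h1, g, rfl, h2⟩
    exact ⟨hB' _ hx g h1 h2, g, rfl, h2⟩
  · rintro x' ⟨hx', g', g3, g4⟩
    obtain ⟨w, rfl, -, -, w3⟩ := hX x hx
    obtain ⟨w', rfl, -, -, w4⟩ := hX x' hx'
    have e1 : (g'⁻¹ * g) • (F ∙ y) = F ∙ y := by rw [mul_smul, g1, inv_smul_eq_iff, g3]
    have e2 : (g'⁻¹ * g) • (F ∙ w) = F ∙ w' := by rw [mul_smul, g2, inv_smul_eq_iff, g4]
    refine ⟨_, ⟨e1, ?_⟩, e2⟩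
    change _ • _ = _
    conv_lhs => rw [← w3, pl, Submodule.smul_sup', e1, e2]
    exact w4

theorem k1 (y z : K) (hy : y ≠ 0) (hz : z ∉ (F ∙ y)) (h : (F ∙ z) ∈ Om F G y) :
    (XX F G y z).ncard ≤ kk F σ y * Sing.mu F G y z ∧
    ∀ u : K, u ∉ (F ∙ y) → (F ∙ u) ∈ Om F G y → (∀ g ∈ ps F G y, g • u ∉ pl F y z) →
      (XX F G y z).ncard + Sing.mu F G y z ≤ kk F σ y * Sing.mu F G y z := by
  obtain ⟨s, hs, hs'⟩ := D.g1_s hd
  refine ⟨D.g1_rs hd C hs hs' hy hz h fun _ _ g e _ => ⟨⟨g, trivial, rfl⟩, e⟩,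
    fun u hu hu' hn => ?_⟩
  have a := D.Nn_pos hd C hs hs' hy hu hu'
  rw [D.Nn_eq hd hs hy] at a
  obtain ⟨p, p1, g, g1, g2⟩ := (Set.ncard_pos (Set.toFinite _)).1 (Nat.pos_of_mul_pos_left a)
  have := D.g1_rs hd C hs hs' hy hz h (B := {p | p ∈ Om F G y ∧ σ • p = p} \ {p})
    fun x hx g' e e' => ⟨⟨⟨g', trivial, rfl⟩, e⟩, fun c : _ = p => hn (g'⁻¹ * g)
      (by rw [mem_stabilizer_iff, mul_smul, g1, inv_smul_eq_iff, c]) (pt_le.1 (by
        rw [← smul_pt, mul_smul, g2, ← c, ← e', inv_smul_smul]; exact hx.2.1))⟩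
  rw [kk, ← Set.ncard_sdiff_singleton_add_one (s := {p | p ∈ Om F G y ∧ σ • p = p})
    ⟨⟨g, trivial, g1⟩, p1⟩, add_mul, one_mul]
  exact Nat.add_le_add_right this _

theorem k2 (y z : K) (hy : y ≠ 0) (hz : z ∉ (F ∙ y)) : ∃ (g : G) (a b : K), Fr F σ a ∧ Fr F σ b ∧
    b ∉ (F ∙ a) ∧ g • pl F y z = pl F a b := by
  obtain ⟨u, v, t, u0, hv, e, ht, ht', tu⟩ := D.g1_two hd hy hz
  obtain ⟨_, _, ⟨⟨a, a0, rfl⟩, ha⟩, ⟨⟨b, b0, rfl⟩, hb⟩, ab⟩ := (Set.one_lt_ncard_iff (Set.toFinite _)).1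
    (D.prime.one_lt.trans_eq (D.ncard_fr hd).symm)
  have fa : Fr F σ a := ⟨a0, ha⟩
  have fb : Fr F σ b := ⟨b0, hb⟩
  have ba : b ∉ (F ∙ a) := fun c => ab (pt_eq_of_mem b0 c).symm
  obtain ⟨α, -, hα⟩ := mem_ps.1 fa.2
  obtain ⟨β, β0, hβ⟩ := mem_ps.1 fb.2
  have x0 : a + b ≠ 0 := fun c => ba (mem_pt.2 ⟨-1, by rw [neg_one_smul, neg_eq_iff_add_eq_zero, c]⟩)
  have hx : σ • (a + b) ∉ (F ∙ (a + b)) := fun c => by
    obtain ⟨c, hc⟩ := mem_pt.1 c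
    rw [smul_add σ, hα, hβ] at hc
    have c1 : c = β := by_contra fun c1 => ba (mem_pt.2 ⟨(c - β)⁻¹ * (α - c), by
      rw [mul_smul, inv_smul_eq_iff₀ (sub_ne_zero.2 c1)]
      linear_combination (norm := module) -hc⟩)
    rw [c1, smul_add, add_left_inj] at hc
    exact (D.ev a b α β a0 ba hα hβ).ne_one D.prime.one_lt
      (by rw [← smul_left_injective F a0 hc, div_self β0])
  have N0 : ∀ {x : K}, x ≠ 0 → Algebra.norm F x ≠ 0 := fun h => Algebra.norm_ne_zero_iff.2 h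
  obtain ⟨s, hs⟩ := (D.mu (σ • (a + b) / (a + b)) (div_ne_zero (smul_ne0 x0) x0)).2 ⟨1, by
    apply mul_right_cancel₀ (N0 x0)
    rw [← map_mul, div_mul_cancel₀ _ x0, D.norm_fr, one_pow, one_mul]⟩
  have sx : ∀ e, s • (e * (a + b)) = e * σ • (a + b) := fun e => by rw [hs]; field_simp
  have p := g1_one tu
  rw [C.ci.c1 t ht ht' s ⟨_, hs⟩ (fun ⟨c, hc⟩ => hx (mem_pt.2 ⟨c, by simpa [hc] using sx 1⟩)) _
    (pt_mem_pts u0) _ (pt_mem_pts (ne0_of_not_mem hv))] at p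
  obtain ⟨_, g, rfl, g2⟩ := (Set.ncard_pos (Set.toFinite _)).1 p
  obtain ⟨f, hf, c, hc⟩ := D.nu_surj hd _ (div_ne_zero (N0 (smul_ne0 (g := g) u0)) (N0 x0))
  obtain ⟨t', t1, t2⟩ := (D.mem_orb_S (smul_ne0 (g := g) u0) (mul_ne_zero hf.1 x0)).2
    ⟨c, by rw [map_mul, hc, mul_assoc, div_mul_cancel₀ _ (N0 x0)]⟩
  have k : ∀ {a b : K}, b ∉ (F ∙ a) → f * b ∉ (F ∙ (f * a)) := fun h c => by
    obtain ⟨c, hc⟩ := mem_pt.1 c
    exact h (mem_pt.2 ⟨c, mul_left_cancel₀ hf.1 (by rw [← hc, mul_smul_comm])⟩)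
  refine ⟨t' * g, f * a, f * b, D.Fr_mul hf fa, D.Fr_mul hf fb, k ba, ?_⟩
  rw [← e, pl, Submodule.smul_sup', mul_smul, mul_smul, g2, smul_pt g, g1_comm t1 ⟨_, hs⟩, t2, smul_pt, sx]
  refine pl_eq_of_mem (mem_pl.2 ⟨1, 1, by simp [mul_add]⟩) (mem_pl.2 ⟨α, β, ?_⟩) (mul_ne_zero hf.1 x0) (k hx)
  rw [smul_add, hα, hβ, mul_add, mul_smul_comm, mul_smul_comm]

theorem k3 (y z : K) (hy : y ≠ 0) (hz : z ∉ (F ∙ y)) (h : (F ∙ z) ∈ Om F G y) :
    geo (Nat.card F) (7 - 1) < (orb (ps F G y) (F ∙ z)).ncard := by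
  obtain ⟨s, hs, hs'⟩ := D.g1_s hd
  have a1 := D.g1_le hd hs hy (D.Nn_pos hd C hs hs' hy hz h)
  have a2 := C.ci.c2 s hs hs' _ (pt_mem_pts hy) _ h
  have a3 := D.mul_ncard_class hd (one_ne_zero (α := K))
  have hq := D.g1_q hd
  have b := g1_num6 hq
  rw [show (7 : ℕ) = 6 + 1 from rfl, geo_succ] at a3
  by_contra! c
  change _ ≤ geo _ 6 at c
  unfold ps at c
  generalize (orb (stabilizer G (F ∙ y)) (F ∙ z)).ncard = κ at *
  generalize (orb (sS K G) (F ∙ (1 : K))).ncard = h at *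
  generalize Nn s (F ∙ y) (F ∙ z) = N at *
  generalize geo (Nat.card F) 6 = Φ at *
  generalize Nat.card F = q at *
  push_cast at a2
  zify at a1 a3 b c hq
  have Φ0 : (0 : ℤ) ≤ Φ := by positivity
  have b1 : (Φ : ℤ) < 7 * (N - κ) := by
    nlinarith [mul_le_mul_of_nonneg_right (show (8 : ℤ) ≤ q by omega) Φ0]
  have b2 := mul_self_lt_mul_self Φ0 b1
  nlinarith [mul_le_mul_of_nonneg_right b Φ0]

end Sg

theorem Sg.gh (D : Sg F K σ 7) (hd : 7 ∣ Nat.card F - 1)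
    (C : CJ (sZ F K G) (sS K G) (pts F K) 7 (orb (sS K G) (F ∙ (1 : K))).ncard 4) :
    GH σ 7 (fun x : K => Algebra.norm F x) where
  prime := D.prime
  h13 := D.h13
  dvd := hd
  cV := D.cK
  fr := D.ncard_fr hd
  ev := D.ev
  nu_ne := fun _ hx => Algebra.norm_ne_zero_iff.2 hx
  nu_smul := D.norm_smul
  nu_sim := fun _ _ c hx hy e => orb_mono le_top _ ((D.mem_orb_S hx hy).2 ⟨c, e⟩)
  nu_add := D.nu_add
  nu_surj := D.nu_surj hd
  nu_inj := D.nu_inj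
  k1 := fun y z hy hz h => (D.k1 hd C y z hy hz h).1
  k1' := fun y z u hy hz h => (D.k1 hd C y z hy hz h).2 u
  k2 := D.k2 hd C
  k3 := D.k3 hd C

end Cfsg.Agent.Sing.E7
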