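import Cfsg.Agent.Sg7.KDef
import Cfsg.Agent.Sing.G2a

/-!
# Lines through two frame points

`a, b` independent frame vectors, `ℓ = pl a b`, `y_t = b + t a`; points of `ℓ` other than `F∙a`
are `F∙y_t`, `t ↦ F∙y_t` is injective.  `kk y ≤ n`, and `kk y ≤ n - 2` if `a, b ∉ Om y` (`fr`).
For non-frame `y ∈ ℓ`, `z = σ y ∉ F∙y` spans `ℓ` with `y` (`pl_eq_of_mem`), and `XX y z` contains
the orbit of `y` under any subgroup of `stab ℓ`, minus `y`.
-/

set_option autoImplicit false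
set_option linter.unusedSectionVars false
set_option linter.style.haveILetI false

namespace Cfsg.Agent.Sing.E7

open MulAction Pointwise Cfsg.Agent.Proj.CK

variable {F G V : Type*} [Field F] [Group G] [AddCommGroup V] [Module F V] [DistribMulAction G V]
  [SMulCommClass G F V] [Finite F] [Finite V] [Finite G] {σ : G} {n : ℕ} {ν : V → F}

theorem fin_sub : Finite (Submodule F V) :=
  Finite.of_injective (fun S : Submodule F V => (S : Set V)) SetLike.coe_injective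

theorem Om_sub_pts {y : V} (hy : y ≠ 0) : Om F G y ⊆ pts F V :=
  (inv_pts ⊤).orb_subset (pt_mem_pts hy)

theorem orb_le_pl {A : Subgroup G} {L : Submodule F V} (hA : A ≤ stabilizer G L) {y : V}
    (hy : y ∈ L) {p : Submodule F V} (hp : p ∈ orb A (F ∙ y)) : p ≤ L := by
  obtain ⟨g, hg, rfl⟩ := hp
  rw [smul_pt, pt_le]
  exact stab_mem (hA hg) hy

theorem orb_mul_Dl_le {A : Subgroup G} {L : Submodule F V} (hA : Dl G L ≤ A) {z : V}
    (hz : z ∈ L) : (orb A (F ∙ z)).ncard * Nat.card (Dl G L) ≤ Nat.card A := by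
  rw [← ncard_orb_mul A (F ∙ z)]
  exact Nat.mul_le_mul_left _
    (Subgroup.card_le_of_le (le_inf hA fun g hg => mem_Dl.1 hg z hz))

theorem Dl_le_ps {L : Submodule F V} {z : V} (hz : z ∈ L) : Dl G L ≤ ps F G z :=
  fun _ hg => mem_Dl.1 hg z hz

theorem orb_le_XX {A : Subgroup G} {y z : V} (hA : A ≤ stabilizer G (pl F y z)) :
    (orb A (F ∙ y)).ncard ≤ (XX F G y z).ncard + 1 := by
  haveI := fin_sub (F := F) (V := V)
  have h : orb A (F ∙ y) ⊆ insert (F ∙ y) (XX F G y z) := by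
    intro p hp
    by_cases e : p = F ∙ y
    · exact Or.inl e
    · exact Or.inr ⟨orb_mono le_top _ hp, orb_le_pl hA (left_mem_pl y z) hp, e⟩
  exact (Set.ncard_le_ncard h (Set.toFinite _)).trans (Set.ncard_insert_le _ _)

theorem yt_not_mem {a b : V} (hab : b ∉ (F ∙ a)) (t : F) : b + t • a ∉ (F ∙ a) := fun h =>
  hab (by simpa using (F ∙ a).sub_mem h (smul_mem_pt t a))

theorem yt_mem (a b : V) (t : F) : b + t • a ∈ pl F a b := mem_pl.2 ⟨t, 1, by rw [one_smul, add_comm]⟩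

theorem yt_inj {a b : V} (ha : a ≠ 0) (hab : b ∉ (F ∙ a)) :
    Function.Injective fun t : F => (F ∙ (b + t • a)) := by
  intro s t h
  obtain ⟨c, -, e⟩ := pt_eq_iff.1 h
  by_cases hc : c = 1
  · subst hc
    rw [one_smul, add_right_inj] at e
    exact smul_left_injective F ha e
  · exfalso
    apply hab
    have h1 : (c - 1) • b = (t - c * s) • a := by
      rw [sub_smul, sub_smul, one_smul, mul_smul]
      rw [smul_add] at e
      rw [sub_eq_sub_iff_add_eq_add, e, add_comm]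
    refine mem_pt.2 ⟨(c - 1)⁻¹ * (t - c * s), ?_⟩
    rw [mul_smul, ← h1, inv_smul_smul₀ (sub_ne_zero.2 hc)]

theorem exists_yt {a b y : V} (hy : y ∈ pl F a b) (hya : y ∉ (F ∙ a)) :
    ∃ t : F, (F ∙ y) = F ∙ (b + t • a) := by
  obtain ⟨s, r, rfl⟩ := mem_pl.1 hy
  have r0 : r ≠ 0 := by
    rintro rfl
    exact hya (by simpa using smul_mem_pt s a)
  refine ⟨r⁻¹ * s, pt_eq_iff.2 ⟨r⁻¹, inv_ne_zero r0, ?_⟩⟩
  rw [smul_add, inv_smul_smul₀ r0, mul_smul, add_comm]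

theorem ncard_yt {a b : V} (ha : a ≠ 0) (hab : b ∉ (F ∙ a)) (T : Set F) :
    ((fun t : F => (F ∙ (b + t • a))) '' T).ncard = T.ncard :=
  Set.ncard_image_of_injective _ (yt_inj ha hab)

theorem ncard_addSub (W : AddSubgroup F) : (W : Set F).ncard = Nat.card W := by
  rw [← Nat.card_coe_set_eq]; rfl

theorem pt_ne_of {a b : V} (hab : b ∉ (F ∙ a)) : (F ∙ b) ≠ F ∙ a := fun e =>
  hab (e ▸ self_mem_pt b)

namespace GH

theorem kk_le (D : GH σ n ν) {y : V} (hy : y ≠ 0) : kk F σ y ≤ n := by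
  haveI := fin_sub (F := F) (V := V)
  rw [← D.fr]
  exact Set.ncard_le_ncard (fun p hp => ⟨Om_sub_pts hy hp.1, hp.2⟩) (Set.toFinite _)

variable (D : GH σ n ν) {a b : V} (ha : Fr F σ a) (hb : Fr F σ b) (hab : b ∉ (F ∙ a))
include D ha hb hab

theorem kk_two' {T : Set (Submodule F V)} (hT : T ⊆ pts F V) (h1 : (F ∙ a) ∉ T) (h2 : (F ∙ b) ∉ T) :
    {p | p ∈ T ∧ σ • p = p}.ncard + 2 ≤ n := by
  haveI := fin_sub (F := F) (V := V)
  rw [← D.fr]
  have e1 : (F ∙ b) ∉ {p | p ∈ T ∧ σ • p = p} := fun h => h2 h.1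
  have e2 : (F ∙ a) ∉ insert (F ∙ b) {p | p ∈ T ∧ σ • p = p} := by
    rintro (h | h)
    · exact pt_ne_of hab h.symm
    · exact h1 h.1
  have e3 := Set.ncard_insert_of_notMem e1 (Set.toFinite _)
  have e4 := Set.ncard_insert_of_notMem e2 (Set.toFinite _)
  have e5 : insert (F ∙ a) (insert (F ∙ b) {p | p ∈ T ∧ σ • p = p}) ⊆
      {p | p ∈ pts F V ∧ σ • p = p} := by
    rintro p (rfl | rfl | h)
    · exact ⟨pt_mem_pts ha.1, ha.2⟩
    · exact ⟨pt_mem_pts hb.1, hb.2⟩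
    · exact ⟨hT h.1, h.2⟩
  have := Set.ncard_le_ncard e5 (Set.toFinite _)
  omega

theorem kk_two {y : V} (hy : y ≠ 0) (h1 : (F ∙ y) ∉ Om F G a) (h2 : (F ∙ y) ∉ Om F G b) :
    kk F σ y + 2 ≤ n :=
  D.kk_two' ha hb hab (Om_sub_pts hy) (fun h => h1 (orb_symm h)) (fun h => h2 (orb_symm h))

theorem kk_kk {y y' : V} (hy : y ≠ 0) (h1 : (F ∙ y) ∉ Om F G a) (h2 : (F ∙ y) ∉ Om F G b)
    (hy' : y' ≠ 0) (h1' : (F ∙ y') ∉ Om F G a) (h2' : (F ∙ y') ∉ Om F G b)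
    (hne : (F ∙ y') ∉ Om F G y) : kk F σ y + kk F σ y' + 2 ≤ n := by
  haveI := fin_sub (F := F) (V := V)
  have h := D.kk_two' ha hb hab (T := Om F G y ∪ Om F G y')
    (Set.union_subset (Om_sub_pts hy) (Om_sub_pts hy'))
    (fun h => h.elim (fun h => h1 (orb_symm h)) fun h => h1' (orb_symm h))
    (fun h => h.elim (fun h => h2 (orb_symm h)) fun h => h2' (orb_symm h))
  have e : {p | p ∈ Om F G y ∪ Om F G y' ∧ σ • p = p} =
      {p | p ∈ Om F G y ∧ σ • p = p} ∪ {p | p ∈ Om F G y' ∧ σ • p = p} := by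
    ext p; simp only [Set.mem_ofPred_eq, Set.mem_union]; tauto
  rw [e, Set.ncard_union_eq _ (Set.toFinite _) (Set.toFinite _)] at h
  · exact h
  · rw [Set.disjoint_left]
    intro p hp hp'
    exact hne (orb_trans hp.1 (orb_symm hp'.1))

theorem le_orb {A : Subgroup G} (hσ : σ ∈ A) {y : V} (hy : y ∈ pl F a b) (hya : y ∉ (F ∙ a))
    (hyb : y ∉ (F ∙ b)) : n ≤ (orb A (F ∙ y)).ncard := by
  obtain ⟨α, -, h1⟩ := mem_ps.1 ha.2
  obtain ⟨β, -, h2⟩ := mem_ps.1 hb.2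
  exact le_ncard_orb ha.1 hab h1 h2 (D.ev a b α β ha.1 hab h1 h2) D.prime.pos hσ hy hya hyb

omit D hab in
theorem σ_stab : σ ∈ stabilizer G (pl F a b) := ps_inf_le_pl a b ⟨ha.2, hb.2⟩

theorem σ_not_mem {y : V} (hy : y ∈ pl F a b) (hya : y ∉ (F ∙ a)) (hyb : y ∉ (F ∙ b)) :
    σ • y ∉ (F ∙ y) := by
  intro h
  have h1 := D.le_orb ha hb hab (mem_ps_of_mem h) hy hya hyb
  have h2 : orb (ps F G y) (F ∙ y) = {F ∙ y} := by
    ext p
    constructor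
    · rintro ⟨g, hg, rfl⟩; exact hg
    · rintro rfl; exact mem_orb_self _ _
  rw [h2, Set.ncard_singleton] at h1
  have := D.h13
  omega

theorem pl_σ {y : V} (hy : y ∈ pl F a b) (hya : y ∉ (F ∙ a)) (hyb : y ∉ (F ∙ b)) :
    pl F y (σ • y) = pl F a b :=
  pl_eq_of_mem hy (stab_mem (σ_stab ha hb) hy) (ne0_of_not_mem hya) (D.σ_not_mem ha hb hab hy hya hyb)

omit D ha hb hab in
theorem σ_Om (y : V) : (F ∙ (σ • y)) ∈ Om F G y := ⟨σ, trivial, smul_pt σ y⟩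

theorem k1σ {y : V} (hy : y ∈ pl F a b) (hya : y ∉ (F ∙ a)) (hyb : y ∉ (F ∙ b)) :
    (XX F G y (σ • y)).ncard ≤ kk F σ y * mu F G y (σ • y) :=
  D.k1 y (σ • y) (ne0_of_not_mem hya) (D.σ_not_mem ha hb hab hy hya hyb) (σ_Om y)

theorem XXσ {A : Subgroup G} (hA : A ≤ stabilizer G (pl F a b)) {y : V} (hy : y ∈ pl F a b)
    (hya : y ∉ (F ∙ a)) (hyb : y ∉ (F ∙ b)) :
    (orb A (F ∙ y)).ncard ≤ (XX F G y (σ • y)).ncard + 1 :=
  orb_le_XX (by rw [D.pl_σ ha hb hab hy hya hyb]; exact hA)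

theorem exW : ∃ W : AddSubgroup F,
      orb (ps F G a ⊓ stabilizer G (pl F a b)) (F ∙ b) = (fun t : F => F ∙ (b + t • a)) '' W ∧
      (W = ⊥ ∨ n + 1 ≤ Nat.card W) ∧
      (∀ t ∉ W, n * Nat.card W ≤
        (orb (ps F G a ⊓ stabilizer G (pl F a b)) (F ∙ (b + t • a))).ncard) ∧
      (∀ t ∉ W, ∀ g ∈ ps F G a ⊓ stabilizer G (pl F a b), g ∈ ps F G (b + t • a) →
        g ∈ Dl G (pl F a b)) ∧
      ((F ∙ b) ∈ Om F G a → ∀ t ∉ W, (F ∙ (b + t • a)) ∉ Om F G a) := by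
  haveI := fin_sub (F := F) (V := V)
  obtain ⟨α, -, h1⟩ := mem_ps.1 ha.2
  obtain ⟨β, -, h2⟩ := mem_ps.1 hb.2
  obtain ⟨W, w1, w2, w3, w4⟩ :=
    exists_W (G := G) ha.1 hab h1 h2 (D.ev a b α β ha.1 hab h1 h2) D.prime.one_lt
  refine ⟨W, w1, w2, w3, w4, fun h t ht hc => ?_⟩
  have hw : mu F G a b = Nat.card W := by
    rw [mu, w1, ncard_yt ha.1 hab, ncard_addSub]
  have k := D.k1 a b ha.1 hab h
  have sub : ∀ y ∈ pl F a b, y ∉ (F ∙ a) → (F ∙ y) ∈ Om F G a →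
      orb (ps F G a ⊓ stabilizer G (pl F a b)) (F ∙ y) ⊆ XX F G a b := by
    intro y hy hya ho p hp
    refine ⟨orb_trans ho (orb_mono le_top _ hp), orb_le_pl inf_le_right hy hp, ?_⟩
    obtain ⟨g, hg, rfl⟩ := hp
    rw [smul_pt]
    exact pt_ne_of (smul_not_mem hg.1 hya)
  have dis : Disjoint (orb (ps F G a ⊓ stabilizer G (pl F a b)) (F ∙ b))
      (orb (ps F G a ⊓ stabilizer G (pl F a b)) (F ∙ (b + t • a))) := by
    rw [Set.disjoint_left]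
    intro p hp hp'
    have := orb_trans hp (orb_symm hp')
    rw [w1] at this
    obtain ⟨s, hs, e⟩ := this
    exact ht (yt_inj ha.1 hab e ▸ hs)
  have c1 := Set.ncard_le_ncard (Set.union_subset (sub b (right_mem_pl a b) hab h)
    (sub _ (yt_mem a b t) (yt_not_mem hab t) hc)) (Set.toFinite _)
  rw [Set.ncard_union_eq dis (Set.toFinite _) (Set.toFinite _)] at c1
  have c2 := w3 t ht
  have c3 : (orb (ps F G a ⊓ stabilizer G (pl F a b)) (F ∙ b)).ncard = Nat.card W := hw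
  have c4 : kk F σ a * mu F G a b ≤ n * Nat.card W := by
    rw [hw]; exact Nat.mul_le_mul_right _ (D.kk_le ha.1)
  have c5 : 0 < Nat.card W := Nat.card_pos
  omega

theorem b2' (h : (F ∙ b) ∈ Om F G a) : (∀ y ∈ pl F a b, y ≠ 0 → (F ∙ y) ∈ Om F G a) ∨
    (Nat.card F = n + 1 ∧ ∀ y ∈ pl F a b, y ∉ (F ∙ a) → y ∉ (F ∙ b) → (F ∙ y) ∉ Om F G a ∧
      (∀ z ∈ pl F a b, z ∉ (F ∙ y) → mu F G y z ≤ 2) ∧
      ∀ y' ∈ pl F a b, y' ∉ (F ∙ a) → y' ∉ (F ∙ b) → (F ∙ y') ∈ Om F G y) := by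
  haveI := fin_sub (F := F) (V := V)
  obtain ⟨W, w1, w2, w3, w4, w5⟩ := D.exW ha hb hab
  have w5 := w5 h
  have inW : ∀ t ∈ W, (F ∙ (b + t • a)) ∈ Om F G a := fun t ht =>
    orb_trans h (orb_mono (le_top (a := ps F G a ⊓ stabilizer G (pl F a b))) _
      (by rw [w1]; exact ⟨t, ht, rfl⟩))
  by_cases hW : ∀ t, t ∈ W
  · left
    intro y hy y0
    by_cases hya : y ∈ (F ∙ a)
    · rw [pt_eq_of_mem y0 hya]; exact mem_orb_self _ _
    · obtain ⟨t, e⟩ := exists_yt hy hya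
      rw [e]; exact inW t (hW t)
  right
  have nb : ∀ {y : V}, (F ∙ y) ∉ Om F G a → (F ∙ y) ∉ Om F G b := fun hy hc =>
    hy (orb_trans h hc)
  have nb' : ∀ {y : V}, y ≠ 0 → (F ∙ y) ∉ Om F G a → y ∉ (F ∙ b) := fun y0 hy hc =>
    hy (pt_eq_of_mem y0 hc ▸ h)
  -- `mu ≤ w + 1`
  have hmu : ∀ t ∉ W, ∀ y : V, y ≠ 0 → (F ∙ y) = F ∙ (b + t • a) → ∀ z ∈ pl F a b, z ∉ (F ∙ y) →
      mu F G y z ≤ Nat.card W + 1 := by
    intro t ht y y0 e z hz hzy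
    have hy : y ∈ pl F a b := pt_le.2 (yt_mem a b t) (e ▸ self_mem_pt y)
    rw [mu, pl_eq_of_mem hy hz y0 hzy]
    have hD : Dl G (pl F a b) ≤ ps F G y ⊓ stabilizer G (pl F a b) :=
      le_inf (Dl_le_ps hy) (Dl_le_stab _)
    have m1 := orb_mul_Dl_le hD hz
    have m2 := ncard_orb_mul (ps F G y ⊓ stabilizer G (pl F a b)) (F ∙ a)
    have m3 : Nat.card ↥(ps F G y ⊓ stabilizer G (pl F a b) ⊓ stabilizer G (F ∙ a)) ≤
        Nat.card (Dl G (pl F a b)) :=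
      Subgroup.card_le_of_le fun g hg => w4 t ht g ⟨hg.2, hg.1.2⟩ (ps_congr (G := G) e ▸ hg.1.1)
    have m4 : orb (ps F G y ⊓ stabilizer G (pl F a b)) (F ∙ a) ⊆
        insert (F ∙ a) ((fun t : F => F ∙ (b + t • a)) '' W) := by
      rintro _ ⟨g, hg, rfl⟩
      rw [smul_pt]
      by_cases hga : g • a ∈ (F ∙ a)
      · exact Or.inl (pt_eq_of_mem (smul_ne0 ha.1) hga)
      · obtain ⟨s, es⟩ := exists_yt (stab_mem hg.2 (left_mem_pl a b)) hga
        refine Or.inr ⟨s, ?_, es.symm⟩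
        by_contra hs
        exact w5 s hs (es ▸ ⟨g, trivial, smul_pt g a⟩)
    have m5 := (Set.ncard_le_ncard m4 (Set.toFinite _)).trans (Set.ncard_insert_le _ _)
    rw [ncard_yt ha.1 hab, ncard_addSub] at m5
    have hp : 0 < Nat.card (Dl G (pl F a b)) := Nat.card_pos
    refine Nat.le_of_mul_le_mul_right (m1.trans ?_) hp
    rw [← m2]
    exact Nat.mul_le_mul m5 m3
  -- the main inequality
  have hin : ∀ t ∉ W, ∀ y : V, y ≠ 0 → (F ∙ y) = F ∙ (b + t • a) →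
      n * Nat.card W ≤ kk F σ y * (Nat.card W + 1) + 1 := by
    intro t ht y y0 e
    have hy : y ∈ pl F a b := pt_le.2 (yt_mem a b t) (e ▸ self_mem_pt y)
    have hya : y ∉ (F ∙ a) := fun hc => yt_not_mem hab t
      (pt_eq_of_mem y0 hc ▸ e ▸ self_mem_pt (b + t • a))
    have hyb : y ∉ (F ∙ b) := nb' y0 (e ▸ w5 t ht)
    have i1 := w3 t ht
    rw [← e] at i1
    have i2 := D.XXσ ha hb hab (inf_le_right (a := ps F G a)) hy hya hyb
    have i3 := D.k1σ ha hb hab hy hya hyb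
    have i4 := Nat.mul_le_mul_left (kk F σ y) (hmu t ht y y0 e _ (stab_mem (σ_stab ha hb) hy)
      (D.σ_not_mem ha hb hab hy hya hyb))
    omega
  have h13 := D.h13
  push Not at hW
  obtain ⟨t₀, ht₀⟩ := hW
  have y0 : ∀ t : F, b + t • a ≠ 0 := fun t => ne0_of_not_mem (yt_not_mem hab t)
  have hWb : W = ⊥ := by
    refine w2.resolve_right fun hw => ?_
    have i1 := hin t₀ ht₀ _ (y0 t₀) rfl
    have i2 := D.kk_two ha hb hab (y0 t₀) (w5 t₀ ht₀) (nb (w5 t₀ ht₀))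
    obtain ⟨m, rfl⟩ : ∃ m, n = m + 2 := ⟨n - 2, by omega⟩
    have i3 : kk F σ (b + t₀ • a) * (Nat.card W + 1) ≤ m * (Nat.card W + 1) :=
      Nat.mul_le_mul_right _ (by omega)
    nlinarith
  subst hWb
  have cb : Nat.card (⊥ : AddSubgroup F) = 1 := Nat.card_unique
  rw [cb] at hmu hin
  have nf : ∀ y ∈ pl F a b, y ∉ (F ∙ a) → y ∉ (F ∙ b) →
      ∃ t, t ∉ (⊥ : AddSubgroup F) ∧ (F ∙ y) = F ∙ (b + t • a) := by
    intro y hy hya hyb
    obtain ⟨t, e⟩ := exists_yt hy hya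
    refine ⟨t, fun ht => hyb ?_, e⟩
    rw [AddSubgroup.mem_bot] at ht
    rw [ht, zero_smul, add_zero] at e
    exact e ▸ self_mem_pt y
  have same : ∀ y ∈ pl F a b, y ∉ (F ∙ a) → y ∉ (F ∙ b) →
      ∀ y' ∈ pl F a b, y' ∉ (F ∙ a) → y' ∉ (F ∙ b) → (F ∙ y') ∈ Om F G y := by
    intro y hy hya hyb y' hy' hya' hyb'
    obtain ⟨t, ht, e⟩ := nf y hy hya hyb
    obtain ⟨t', ht', e'⟩ := nf y' hy' hya' hyb'
    by_contra hne
    have o1 : (F ∙ y) ∉ Om F G a := e ▸ w5 t ht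
    have o2 : (F ∙ y') ∉ Om F G a := e' ▸ w5 t' ht'
    have j1 := D.kk_kk ha hb hab (ne0_of_not_mem hya) o1 (nb o1) (ne0_of_not_mem hya') o2 (nb o2) hne
    have j2 := hin t ht y (ne0_of_not_mem hya) e
    have j3 := hin t' ht' y' (ne0_of_not_mem hya') e'
    omega
  refine ⟨?_, fun y hy hya hyb => ?_⟩
  · have h1 : (1 : F) ∉ (⊥ : AddSubgroup F) := by simp
    have o1 := w5 1 h1
    have hyb := nb' (y0 1) o1
    have i3 := D.k1σ ha hb hab (yt_mem a b 1) (yt_not_mem hab 1) hyb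
    have i4 := Nat.mul_le_mul_left (kk F σ (b + (1 : F) • a)) (hmu 1 h1 _ (y0 1) rfl _
      (stab_mem (σ_stab ha hb) (yt_mem a b 1))
      (D.σ_not_mem ha hb hab (yt_mem a b 1) (yt_not_mem hab 1) hyb))
    have i2 := D.kk_two ha hb hab (y0 1) o1 (nb o1)
    have s1 : (fun t : F => F ∙ (b + t • a)) '' ({0, 1} : Set F)ᶜ ⊆
        XX F G (b + (1 : F) • a) (σ • (b + (1 : F) • a)) := by
      rintro _ ⟨t, ht, rfl⟩
      simp only [Set.mem_compl_iff, Set.mem_insert_iff, Set.mem_singleton_iff, not_or] at ht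
      have ht' : t ∉ (⊥ : AddSubgroup F) := by simpa using ht.1
      refine ⟨same _ (yt_mem a b 1) (yt_not_mem hab 1) hyb _ (yt_mem a b t) (yt_not_mem hab t)
        (nb' (y0 t) (w5 t ht')), ?_, fun e => ht.2 (yt_inj ha.1 hab e)⟩
      rw [D.pl_σ ha hb hab (yt_mem a b 1) (yt_not_mem hab 1) hyb, pt_le]
      exact yt_mem a b t
    have s2 := Set.ncard_le_ncard s1 (Set.toFinite _)
    rw [ncard_yt ha.1 hab] at s2
    have s3 := Set.ncard_add_ncard_compl ({0, 1} : Set F)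
    rw [Set.ncard_pair (zero_ne_one (α := F))] at s3
    obtain ⟨k, hk⟩ := D.dvd
    have q2 := two_le_q (F := F)
    have k1 : k = 1 := by
      rcases k with _ | _ | k
      · omega
      · rfl
      · exfalso
        have : n * 2 ≤ n * (k + 1 + 1) := Nat.mul_le_mul_left _ (by omega)
        omega
    subst k1
    omega
  · obtain ⟨t, ht, e⟩ := nf y hy hya hyb
    exact ⟨e ▸ w5 t ht, hmu t ht y (ne0_of_not_mem hya) e, same y hy hya hyb⟩

/-- (B1) If a non-frame `y` is in neither orbit: `rh3` for `a, b, y`.  `|L_a| ≥ n |L0|` from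
`le_ncard_orb` + `ncard_orb_mul`; `k1` for `(y, σ y)`: `n - 1 ≤ (n - 2) μ`, so `μ ≥ 2`. -/
theorem b1 (h : (F ∙ b) ∉ Om F G a) {y : V} (hy : y ∈ pl F a b) (y0 : y ≠ 0) :
    (F ∙ y) ∈ Om F G a ∨ (F ∙ y) ∈ Om F G b := by
  by_cases hya : y ∈ (F ∙ a)
  · left; rw [pt_eq_of_mem y0 hya]; exact mem_orb_self _ _
  by_cases hyb : y ∈ (F ∙ b)
  · right; rw [pt_eq_of_mem y0 hyb]; exact mem_orb_self _ _
  by_contra! hc
  obtain ⟨o1, o2⟩ := hc
  have h13 := D.h13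
  have big : ∀ x ∈ pl F a b, σ ∈ ps F G x →
      5 * Nat.card (Dl G (pl F a b)) ≤ Nat.card ↥(stabilizer G (pl F a b) ⊓ ps F G x) := by
    intro x hx hσ
    have i1 := D.le_orb ha hb hab (A := stabilizer G (pl F a b) ⊓ ps F G x) ⟨σ_stab ha hb, hσ⟩
      hy hya hyb
    have i2 := orb_mul_Dl_le (A := stabilizer G (pl F a b) ⊓ ps F G x)
      (le_inf (Dl_le_stab _) (Dl_le_ps hx)) hy
    exact (Nat.mul_le_mul_right _ (by omega)).trans i2
  refine rh3 (G := G) (left_mem_pl a b) (right_mem_pl a b) hy ha.1 hb.1 y0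
    (fun hc => h (orb_mono le_top _ hc)) (fun hc => o1 (orb_mono le_top _ hc))
    (fun hc => o2 (orb_mono le_top _ hc)) (big a (left_mem_pl a b) ha.2)
    (big b (right_mem_pl a b) hb.2) ?_
  have i1 := D.le_orb ha hb hab (σ_stab ha hb) hy hya hyb
  have i2 := D.XXσ ha hb hab le_rfl hy hya hyb
  have i3 := D.k1σ ha hb hab hy hya hyb
  have i4 := D.kk_two ha hb hab y0 o1 o2
  have i5 : 2 ≤ mu F G y (σ • y) := by
    by_contra! hlt
    have : kk F σ y * mu F G y (σ • y) ≤ kk F σ y * 1 := Nat.mul_le_mul_left _ (by omega)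
    omega
  rw [mu, D.pl_σ ha hb hab hy hya hyb, inf_comm] at i5
  have i6 := orb_mul_Dl_le (A := stabilizer G (pl F a b) ⊓ ps F G y)
    (le_inf (Dl_le_stab _) (Dl_le_ps hy)) (stab_mem (σ_stab ha hb) hy)
  exact (Nat.mul_le_mul_right _ i5).trans i6

/-- `W` from `exists_W`, `w = |W| = mu a b`.  If `y_t ∈ Om a`, `t ∉ W`, then
`(n + 1) w ≤ |XX a b| ≤ n w` (`k1`).  So `ℓ ∩ Om a = {a} ∪ y_W`; here `W = ⊤`. -/
theorem b3 (h : ∀ y ∈ pl F a b, y ≠ 0 → (F ∙ y) ∈ Om F G a) {y : V} (hy : y ∈ pl F a b)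
    (hya : y ∉ (F ∙ a)) : (F ∙ y) ∈ orb (ps F G a ⊓ stabilizer G (pl F a b)) (F ∙ b) := by
  obtain ⟨W, w1, -, -, -, w5⟩ := D.exW ha hb hab
  obtain ⟨t, e⟩ := exists_yt hy hya
  rw [w1]
  refine ⟨t, ?_, e.symm⟩
  by_contra ht
  exact w5 (h b (right_mem_pl a b) hb.1) t ht
    (h _ (yt_mem a b t) (ne0_of_not_mem (yt_not_mem hab t)))

/-- (B2) As in `b3`, `ℓ ∩ Om a = {a} ∪ y_W`.  Let `W ≠ ⊤`, `y = y_t`, `t ∉ W`.  `L_y ⊓ L_a = L0`, so
`|L_y : L0| = |orb L_y a| ≤ w + 1` and `mu y z ≤ w + 1` for all `z ∈ ℓ`.  `k1` for `(y, σ y)`: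
`n w - 1 ≤ (n-2)(w+1)`, so `w < n + 1`, `W = ⊥`, `mu ≤ 2`, `n - 1 ≤ 2 kk y` for all non-frame `y`.
Two of them in different orbits would give `kk y + kk y' ≤ n - 2`; so all `q - 1` are in one orbit,
`q - 2 ≤ 2 (n - 2)`, and `n ∣ q - 1` gives `q = n + 1`. -/
theorem b2 (h : (F ∙ b) ∈ Om F G a) : (∀ y ∈ pl F a b, y ≠ 0 → (F ∙ y) ∈ Om F G a) ∨
    (Nat.card F = n + 1 ∧ ∀ y ∈ pl F a b, y ∉ (F ∙ a) → y ∉ (F ∙ b) → (F ∙ y) ∉ Om F G a ∧
      ∀ z ∈ pl F a b, z ∉ (F ∙ y) → mu F G y z ≤ 2) := by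
  rcases D.b2' ha hb hab h with h1 | ⟨h1, h2⟩
  · exact Or.inl h1
  · exact Or.inr ⟨h1, fun y hy hya hyb => ⟨(h2 y hy hya hyb).1, (h2 y hy hya hyb).2.1⟩⟩

/-- `b2` (second case), `y = a + b`, `z = σ y`: `n - 1 ≤ |XX| ≤ 2 kk y`, so there are two frame
points `w ≠ w'` in `Om y`; `g w = y`, `u = g w'`.  If `g' u ∈ ℓ`, `g' ∈ ps y`, then `g' g` maps
`ℓ' = pl w w'` onto `ℓ`; the preimage of `a` is a non-frame point of `ℓ'` outside `Om y`; its
`σ`-orbit has `≥ n ≥ 3` points of `ℓ'` outside `Om y` (`le_ncard_orb`), but on `ℓ` only `a, b` are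
outside `Om y` (`q - 1 = n`: the non-frame points form one `σ`-orbit).  So `k1'` applies:
`n - 1 + μ ≤ kk y μ`, `1 ≤ μ ≤ 2`. -/
theorem minor (h : (F ∙ b) ∈ Om F G a) (h' : (F ∙ (a + b)) ∉ Om F G a) :
    n + 1 ≤ 2 * kk F σ (a + b) := by
  haveI := fin_sub (F := F) (V := V)
  have hy : a + b ∈ pl F a b := (pl F a b).add_mem (left_mem_pl a b) (right_mem_pl a b)
  have hya : a + b ∉ (F ∙ a) := fun hc =>
    hab (by simpa using (F ∙ a).sub_mem hc (self_mem_pt a))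
  have y0 := ne0_of_not_mem hya
  have hyb : a + b ∉ (F ∙ b) := fun hc => h' (pt_eq_of_mem y0 hc ▸ h)
  generalize a + b = y at *
  rcases D.b2' ha hb hab h with h1 | ⟨-, h2⟩
  · exact absurd (h1 y hy y0) h'
  obtain ⟨-, hmu, same⟩ := h2 y hy hya hyb
  have h13 := D.h13
  have hz := D.σ_not_mem ha hb hab hy hya hyb
  have i0 := hmu _ (stab_mem (σ_stab ha hb) hy) hz
  have i1 := D.le_orb ha hb hab (σ_stab ha hb) hy hya hyb
  have i2 := D.XXσ ha hb hab le_rfl hy hya hyb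
  have i3 := D.k1σ ha hb hab hy hya hyb
  have i4 : 1 < kk F σ y := by
    have : kk F σ y * mu F G y (σ • y) ≤ kk F σ y * 2 := Nat.mul_le_mul_left _ i0
    omega
  obtain ⟨p, hp, p', hp', hne⟩ := (Set.one_lt_ncard (Set.toFinite _)).1 i4
  obtain ⟨w, w0, rfl⟩ := Om_sub_pts y0 hp.1
  obtain ⟨w', w0', rfl⟩ := Om_sub_pts y0 hp'.1
  have hww : w' ∉ (F ∙ w) := fun hc => hne (pt_eq_of_mem w0' hc).symm
  obtain ⟨g, -, hg⟩ := orb_symm hp.1
  rw [smul_pt] at hg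
  have hu : g • w' ∉ (F ∙ y) := hg ▸ smul_not_mem_pt hww
  have huo : (F ∙ (g • w')) ∈ Om F G y := orb_trans hp'.1 ⟨g, trivial, smul_pt g w'⟩
  have key : ∀ g' ∈ ps F G y, g' • g • w' ∉ pl F y (σ • y) := by
    intro g' hg' hc
    rw [D.pl_σ ha hb hab hy hya hyb] at hc
    have e1 : (F ∙ ((g' * g) • w)) = F ∙ y := by
      rw [mul_smul, ← smul_pt, hg]; exact hg'
    have e2 : (g' * g) • pl F w w' = pl F a b := by
      rw [smul_pl]
      exact pl_eq_of_mem (pt_le.2 hy (e1 ▸ self_mem_pt _)) (by rw [mul_smul]; exact hc)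
        (smul_ne0 w0) (smul_not_mem_pt hww)
    have c0 : (g' * g)⁻¹ • a ≠ 0 := smul_ne0 ha.1
    have c1 : (g' * g)⁻¹ • a ∈ pl F w w' := mem_smul_iff.1 (e2 ▸ left_mem_pl a b)
    have c2 : (F ∙ ((g' * g)⁻¹ • a)) ∉ Om F G y := fun hc =>
      h' (orb_trans ⟨_, trivial, smul_pt _ a⟩ (orb_symm hc))
    have c3 := D.le_orb (a := w) (b := w') ⟨w0, hp.2⟩ ⟨w0', hp'.2⟩ hww
      (σ_stab (a := w) (b := w') ⟨w0, hp.2⟩ ⟨w0', hp'.2⟩) c1
      (fun hc => c2 (pt_eq_of_mem c0 hc ▸ hp.1)) (fun hc => c2 (pt_eq_of_mem c0 hc ▸ hp'.1))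
    have c4 : (fun p : Submodule F V => (g' * g) • p) ''
        orb (stabilizer G (pl F w w')) (F ∙ ((g' * g)⁻¹ • a)) ⊆ {F ∙ a, F ∙ b} := by
      rintro _ ⟨_, ⟨k, hk, rfl⟩, rfl⟩
      have v0 : (g' * g) • k • (g' * g)⁻¹ • a ≠ 0 := smul_ne0 (smul_ne0 c0)
      have v1 : (g' * g) • k • (g' * g)⁻¹ • a ∈ pl F a b := by
        rw [← e2, mem_smul_iff, inv_smul_smul]; exact stab_mem hk c1
      simp only [smul_pt]
      by_cases va : (g' * g) • k • (g' * g)⁻¹ • a ∈ (F ∙ a)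
      · exact Or.inl (pt_eq_of_mem v0 va)
      by_cases vb : (g' * g) • k • (g' * g)⁻¹ • a ∈ (F ∙ b)
      · exact Or.inr (pt_eq_of_mem v0 vb)
      exact absurd (orb_trans (same _ v1 va vb) (orb_symm ⟨(g' * g) * k, trivial, by
        rw [smul_pt, mul_smul]⟩)) c2
    have c5 := (Set.ncard_le_ncard c4 (Set.toFinite _)).trans (Set.ncard_insert_le _ _)
    rw [Set.ncard_image_of_injective _ (MulAction.injective (g' * g)), Set.ncard_singleton] at c5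
    omega
  have i5 := D.k1' y (σ • y) (g • w') y0 hz (σ_Om y) hu huo key
  have i6 : 0 < mu F G y (σ • y) := ncard_orb_pos _ _
  have : mu F G y (σ • y) = 1 ∨ mu F G y (σ • y) = 2 := by omega
  rcases this with e | e <;> rw [e] at i5 <;> omega

end GH

end Cfsg.Agent.Sing.E7
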