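import Cfsg.Agent.Sg7.KFld
import Cfsg.Agent.S0675

/-!
# The case `q = 2`, `n = 7`
-/

set_option autoImplicit false
set_option linter.unusedSectionVars false
set_option linter.style.haveILetI false

namespace Cfsg.Agent.Sing.E7

open MulAction Pointwise Cfsg.Agent.Proj.CK

variable {F K G : Type*} [Field F] [Field K] [Algebra F K] [Finite F] [Finite K] [Group G]
  [Finite G] [DistribMulAction G K] [SMulCommClass G F K] {σ : G}

/-- the non-zero elements -/
def nz (K G : Type*) [Field K] [Group G] [DistribMulAction G K] : SubMulAction G K where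
  carrier := {x | x ≠ 0}
  smul_mem' g _ hx := (smul_ne_zero_iff_ne g).2 hx

theorem two_cases (hq : Nat.card F = 2) (c : F) : c = 0 ∨ c = 1 := by
  have := kf_pow c
  rw [hq] at this
  by_cases h : c = 0
  · exact .inl h
  · exact .inr (mul_left_cancel₀ h (by rw [← sq, this, mul_one]))

theorem normal_of_aff {G Ω : Type*} [Group G] [MulAction G Ω] [FaithfulSMul G Ω] {p : ℕ}
    [Fact p.Prime] {c : G} {e : ZMod p ≃ Ω} (hc : ∀ i, c • e i = e (i + 1))
    (h : ∀ g : G, ∃ a b : ZMod p, ∀ i, g • e i = e (a * i + b)) : (Subgroup.zpowers c).Normal := by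
  refine ⟨?_⟩
  rintro _ ⟨n, rfl⟩ g
  obtain ⟨a, b, hg⟩ := h g
  have : g * c * g⁻¹ = c ^ a.val := Perm.eq_pow_of_translation hc fun i => by
    obtain ⟨j, hj⟩ := e.surjective (g⁻¹ • e i)
    have e1 : i = a * j + b := e.injective (by rw [← hg, hj, smul_inv_smul])
    rw [mul_smul, mul_smul, ← hj, hc, hg, e1]
    congr 1
    ring
  beta_reduce
  rw [← conj_zpow, this]
  exact Subgroup.zpow_mem _ (Subgroup.pow_mem _ (Subgroup.mem_zpowers c) _) n

/-- `F = {0, 1}`, `|K| = 128` (`cK`).  `G` acts faithfully (`faith`) on the `127` non-zero elements,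
and every multiplication `k ·` (`k ≠ 0`) is in `G` (`mu`, the norm is `1 = 1⁷`), so transitively.
Burnside (`S0675.result` for the image in `Perm`): doubly transitive, which is `T2` (`y ∉ F∙x` means
`y ≠ 0, x`; `g • F∙x = F∙(g x)`), or `G` is solvable.  Then the last non-trivial derived term `A` is
abelian, normal, its orbits have equal length dividing the prime `127`, so it is transitive, regular,
`|A| = 127`.  `S = sS` has order `127` and acts on `A` trivially (`|Aut A| = 126`, or: `A`, `S` are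
`127`-subgroups, `A` normal, `127² ∤ 127!`), so `S = A` is normal in `G`; then `g (k ·) g⁻¹ = k' ·`
and `g⁻¹ (k' ·) g = k ·` give `g ∈ sN` (`k = 0` is trivial). -/
theorem Sg.t2_or_two (D : Sg F K σ 7) (hq : Nat.card F = 2) :
    T2 F G K ∨ ∀ g : G, g ∈ sN K G := by
  classical
  have hK : Nat.card K = 128 := by rw [D.cK, hq]; rfl
  have mu : ∀ k : K, k ≠ 0 → ∃ g : G, ∀ x : K, g • x = k * x := fun k hk =>
    (D.mu k hk).2 ⟨1, by rw [one_pow]; exact (two_cases hq _).resolve_left (kf_norm_ne hk)⟩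
  have hΩ : Nat.card (nz K G) = 127 := by
    have : Nat.card (nz K G) = ({0}ᶜ : Set K).ncard := rfl
    rw [this, Set.ncard_compl, Set.ncard_singleton, hK]
  have : Fact (Nat.Prime 127) := ⟨by norm_num⟩
  have : FaithfulSMul G (nz K G) := ⟨fun {g h} e => by
    rw [← inv_mul_eq_one]
    refine D.faith _ fun x => ?_
    by_cases hx : x = 0
    · rw [hx, smul_zero]
    · rw [mul_smul, inv_smul_eq_iff]
      exact (congrArg Subtype.val (e ⟨x, hx⟩)).symm⟩
  have : IsPretransitive G (nz K G) := ⟨fun x y => by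
    have hx : x.1 ≠ 0 := x.2
    obtain ⟨g, hg⟩ := mu (y.1 / x.1) (div_ne_zero y.2 hx)
    exact ⟨g, Subtype.ext ((hg x).trans (div_mul_cancel₀ _ hx))⟩⟩
  have pw : ∀ s : G, ∀ k : K, (∀ x : K, s • x = k * x) → ∀ n : ℕ, ∀ x : K, s ^ n • x = k ^ n * x :=
    fun s k hk n => by
      induction n with
      | zero => simp
      | succ n ih => intro x; rw [pow_succ, mul_smul, hk, ih, pow_succ, mul_assoc]
  have pS : IsPGroup 127 (sS K G) := fun ⟨s, k, hk⟩ => ⟨1, Subtype.ext (D.faith _ fun x => by
    have k0 : k ≠ 0 := fun e => by simpa [e] using (smul_ne_zero_iff_ne s).2 (one_ne_zero (α := K)) (by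
      rw [hk, e, zero_mul])
    have e1 := kf_pow k
    rw [hK] at e1
    have e2 : k ^ 127 = 1 := mul_left_cancel₀ k0 (by rw [← pow_succ', e1, mul_one])
    change s ^ 127 ^ 1 • x = x
    rw [pw s k hk, pow_one, e2, one_mul])⟩
  obtain ⟨P, hP⟩ := pS.exists_le_sylow
  have cP := Perm.card_sylow_of_prime_degree hΩ P
  have eS : sS K G = P := by
    have d := Subgroup.card_dvd_of_le hP
    rw [cP] at d
    rcases (Nat.dvd_prime Fact.out).1 d with d | d
    · exfalso
      have := Fintype.ofFinite K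
      obtain ⟨k, -, hk⟩ := Finset.exists_mem_notMem_of_card_lt_card (s := ({0, 1} : Finset K))
        (t := Finset.univ) (Finset.card_le_two.trans_lt (by
          rw [Finset.card_univ, ← Nat.card_eq_fintype_card, hK]; norm_num))
      simp only [Finset.mem_insert, Finset.mem_singleton, not_or] at hk
      obtain ⟨g, hg⟩ := mu k hk.1
      have : g = 1 := Subgroup.mem_bot.1 ((Subgroup.card_eq_one.1 d).le ⟨k, hg⟩)
      exact hk.2 (by simpa [this] using (hg 1).symm)
    · exact Subgroup.eq_of_le_of_card_ge hP (by rw [cP, d])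
  obtain ⟨c, e, hc, -, he⟩ := Perm.exists_coord_of_prime_degree hΩ P
  by_cases h : ∀ g : G, ∃ a b : ZMod 127, ∀ i, g • e i = e (a * i + b)
  · have hn : (sS K G).Normal := by rw [eS, hc]; exact normal_of_aff he h
    have k1 : ∀ g : G, ∀ k : K, ∃ k' : K, ∀ v : K, g • (k * v) = k' * g • v := fun g k => by
      by_cases k0 : k = 0
      · exact ⟨0, by simp [k0]⟩
      obtain ⟨s, hs⟩ := mu k k0
      obtain ⟨k', h'⟩ := hn.conj_mem s ⟨k, hs⟩ g
      exact ⟨k', fun v => by rw [← h', mul_smul, mul_smul, inv_smul_smul, hs]⟩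
    refine .inr fun g => ⟨k1 g, fun k' => ?_⟩
    obtain ⟨k, hk⟩ := k1 g⁻¹ k'
    exact ⟨k, fun v => by rw [← smul_inv_smul g (k' * g • v), hk, inv_smul_smul]⟩
  · have := Fintype.ofFinite (nz K G)
    have t := S0675.two_trans_of_not_affine he h
    rw [is_two_pretransitive_iff] at t
    refine .inl fun x y x' y' hx hy hx' hy' => ?_
    obtain ⟨g, h1, h2⟩ := t (a := ⟨x, hx⟩) (b := ⟨y, ne0_of_not_mem hy⟩) (c := ⟨x', hx'⟩)
      (d := ⟨y', ne0_of_not_mem hy'⟩)
      (fun e => hy (by rw [show y = x from (congrArg Subtype.val e).symm]; exact self_mem_pt x))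
      (fun e => hy' (by rw [show y' = x' from (congrArg Subtype.val e).symm]; exact self_mem_pt x'))
    exact ⟨g, by rw [smul_pt, show g • x = x' from congrArg Subtype.val h1], congrArg Subtype.val h2⟩

end Cfsg.Agent.Sing.E7
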